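import Mathlib
import Cfsg.Prelude.Def_MonsterType

/-!
Automorphism groups of groups of large Fischer type: an outer involution `d` centralizing `z`, and
the three commuting conjugates `t, u, v` in its centralizer with product `z`.
-/

set_option autoImplicit false

namespace CfsgLib.AutLf48

open Cfsg

universe w

/-- What the local analysis at `z` and at `t` gives. -/
structure Core {X : Type w} [Group X] (G₀ : Subgroup X) (z d t u v : X) where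
  idx : G₀.index = 2
  d_sq : d * d = 1
  d_out : d ∉ G₀
  z_mem : z ∈ G₀
  z_order : orderOf z = 2
  d_z : Commute d z
  t_mem : t ∈ G₀ ⊓ Subgroup.centralizer ({d} : Set X)
  u_mem : u ∈ G₀ ⊓ Subgroup.centralizer ({d} : Set X)
  v_mem : v ∈ G₀ ⊓ Subgroup.centralizer ({d} : Set X)
  t_sq : t * t = 1
  tu : t ≠ u ∧ Commute t u
  uv : u ≠ v ∧ Commute u v
  tv : t ≠ v ∧ Commute t v
  prod : t * u * v = z
  not_conj : ∀ g ∈ G₀, g * t * g⁻¹ ≠ z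
  cent_t : ∀ g, Commute g t → g * d * g⁻¹ = d ∨ g * d * g⁻¹ = d * t
  swap : ∃ g ∈ G₀, Commute g t ∧ g * d * g⁻¹ = d * t
  noswap : ∀ g, Commute g t → g * d * g⁻¹ = d * t →
    ∃ y : ↥(G₀ ⊓ Subgroup.centralizer ({d} : Set X)), Commute (y : X) t ∧ ¬ Commute g y
  Q : Subgroup X
  Q_le : Q ≤ G₀ ⊓ Subgroup.centralizer ({z} : Set X)
  Q_normal : Subgroup.centralizer ({z} : Set X) ≤ Subgroup.normalizer (Q : Set X)
  Q_gen : ∀ q ∈ Q, ∃ a ∈ Q, ∃ b ∈ Q, Commute a t ∧ Commute b u ∧ q = a * b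
  Q_comm : ∀ a ∈ Q, ∀ b ∈ Q, a * b * a⁻¹ * b⁻¹ = 1 ∨ a * b * a⁻¹ * b⁻¹ = z
  s : X
  s_mem : s ∈ G₀ ⊓ Subgroup.centralizer ({z} : Set X)
  s_d : Commute s d
  s_t : s * t * s⁻¹ = u
  s_u : s * u * s⁻¹ = v
  s_v : s * v * s⁻¹ = t
  /-- the centralizer in `Q` of the centralizer of `d` in `Q` -/
  Q_cc : ∀ x ∈ Q, (∀ a ∈ Q, Commute a d → Commute x a) → x ∈ Subgroup.closure ({t, u, v} : Set X)
  u_Q : u ∈ Q
  v_Q : v ∈ Q
  t_Q : t ∈ Q
  Q_d : ∀ w ∈ ({t, u, v} : Set X), ∃ q ∈ Q, q * d * q⁻¹ = d * w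
  t_z : ∃ q ∈ Q, q * t * q⁻¹ = t * z

end CfsgLib.AutLf48
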