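import Mathlib
import Cfsg.Prelude.Def_MonsterType
import Cfsg.Agent.Fi23Type67.Main
import Cfsg.Agent.CosetEnum.Fi24.Checked

/-!
Automorphism groups of groups of large Fischer type: the configuration of an outer involution `d`
and the three members `t, u, v` of the class of M(23) in its centralizer with product `z`.
-/

set_option autoImplicit false

namespace CfsgLib.AutLf48

open Cfsg

universe w

/-- The configuration in a group `X` with the subgroup `G₀` of index two. -/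
structure Cfg {X : Type w} [Group X] (G₀ : Subgroup X) (z d t u v : X) where
  idx : G₀.index = 2
  d_sq : d * d = 1
  d_out : d ∉ G₀
  z_mem : z ∈ G₀
  z_order : orderOf z = 2
  /-- the even part of the centralizer of `d` -/
  e : ↥(G₀ ⊓ Subgroup.centralizer ({d} : Set X)) ≃* Spor.Fi23
  /-- the class of `t` -/
  tY : ↥(G₀ ⊓ Subgroup.centralizer ({d} : Set X))
  uY : ↥(G₀ ⊓ Subgroup.centralizer ({d} : Set X))
  vY : ↥(G₀ ⊓ Subgroup.centralizer ({d} : Set X))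
  tY_coe : (tY : X) = t
  uY_coe : (uY : X) = u
  vY_coe : (vY : X) = v
  tY_cls : e tY ∈ CfsgLib.Fi23Type67.D23
  uY_cls : e uY ∈ CfsgLib.Fi23Type67.D23
  vY_cls : e vY ∈ CfsgLib.Fi23Type67.D23
  tu : t ≠ u ∧ Commute t u
  uv : u ≠ v ∧ Commute u v
  tv : t ≠ v ∧ Commute t v
  prod : t * u * v = z
  not_conj : ∀ g ∈ G₀, g * t * g⁻¹ ≠ z
  /-- the conjugates of `d` commuting with `d` -/
  nd : ∀ x, IsConj d x → Commute x d → x ≠ d →
    ∃ y : ↥(G₀ ⊓ Subgroup.centralizer ({d} : Set X)), e y ∈ CfsgLib.Fi23Type67.D23 ∧ x = d * y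
  ndc : ∀ y : ↥(G₀ ⊓ Subgroup.centralizer ({d} : Set X)),
    e y ∈ CfsgLib.Fi23Type67.D23 → IsConj d (d * y)
  cent_t : ∀ g, Commute g t → g * d * g⁻¹ = d ∨ g * d * g⁻¹ = d * t
  swap : ∃ g ∈ G₀, Commute g t ∧ g * d * g⁻¹ = d * t
  /-- an element interchanging `d` and `d * t` acts on the common part as an outer automorphism -/
  noswap : ∀ g, Commute g t → g * d * g⁻¹ = d * t →
    ∃ y : ↥(G₀ ⊓ Subgroup.centralizer ({d} : Set X)), Commute (y : X) t ∧ ¬ Commute g y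
  Q : Subgroup X
  Q_le : Q ≤ G₀ ⊓ Subgroup.centralizer ({z} : Set X)
  Q_normal : Subgroup.centralizer ({z} : Set X) ≤ Subgroup.normalizer (Q : Set X)
  Q_gen : ∀ q ∈ Q, ∃ a ∈ Q, ∃ b ∈ Q, Commute a t ∧ Commute b u ∧ q = a * b
  Q_comm : ∀ a ∈ Q, ∀ b ∈ Q, a * b * a⁻¹ * b⁻¹ = 1 ∨ a * b * a⁻¹ * b⁻¹ = z
  s : X
  s_mem : s ∈ G₀ ⊓ Subgroup.centralizer ({z} : Set X)
  s_d : Commute s d
  s_t : s * t * s⁻¹ = u
  s_u : s * u * s⁻¹ = v
  s_v : s * v * s⁻¹ = t
  t_Q : t ∈ Q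

end CfsgLib.AutLf48
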