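import Cfsg.Agent.LargeFischer58.Basic
import Cfsg.Agent.LargeFischer58.Local
import Cfsg.Agent.LargeFischer85.Setup
import Cfsg.Agent.LargeFischer4.Digits
import Cfsg.Agent.U43Mult.Model

/-!
Large Fischer type: linear algebra on the frame and the scalars in the image of `C(z)`.
-/

set_option autoImplicit false
set_option maxRecDepth 100000

namespace CfsgLib.AutLf48

open Cfsg CfsgLib.LargeFischer85 CfsgLib.LargeFischer28 CfsgLib.LargeFischer45
open CfsgLib.LargeFischer58 (e1 e2)

theorem pz2 : ∀ x : ZMod 2, x = 0 ∨ x = 1 := by decide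

theorem orth_vadd (a b c : W) : orth (vadd a b) c ↔ (orth a c ↔ orth b c) := by
  simp only [LargeFischer4.orth_iff_pz, LargeFischer4.pz_vadd_left]
  rcases pz2 (LargeFischer4.pz a c) with e | e <;> rcases pz2 (LargeFischer4.pz b c) with e' | e' <;>
    rw [e, e'] <;> decide

theorem orth_sym (a b : W) : orth a b ↔ orth b a := LargeFischer4.orth_comm a b

theorem orth_nondeg {a : W} (ha : a ≠ 0) : ∃ v, ¬ orth v a := by
  have := forall_of_chk (fun a => decide (a = 0) || ((List.finRange 12).any fun j => decide (¬ orth (bas j) a)))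
    (by decide +kernel) a
  simp only [Bool.or_eq_true, decide_eq_true_eq, List.any_eq_true] at this
  rcases this with e | ⟨j, -, hj⟩
  · exact absurd e ha
  · exact ⟨_, hj⟩

theorem vadd_right (a b c : W) : vadd (vadd a b) c = vadd a (vadd b c) :=
  Fin.ext (by simp only [vadd_val, Nat.xor_assoc])

theorem eq_of_vadd_zero {a b : W} (h : vadd a b = 0) : a = b := by
  have := congrArg (fun x => vadd x b) h
  simp only [vadd_right, vadd_self, vadd_zero', vadd_comm' 0] at this
  exact this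

theorem dual_one {a b : W} (ha : a ≠ 0) (hb : b ≠ 0) (hne : b ≠ a) :
    ∃ v, orth v a ∧ ¬ orth v b := by
  by_contra hno
  push Not at hno
  obtain ⟨w, hw⟩ := orth_nondeg ha
  by_cases hwb : orth w b
  · obtain ⟨v, hv⟩ := orth_nondeg hb
    by_cases hva : orth v a
    · exact hv (hno v hva)
    · have : orth (vadd v w) a := (orth_vadd v w a).2 (iff_of_false hva hw)
      exact hv (((orth_vadd v w b).1 (hno _ this)).2 hwb)
  · obtain ⟨v, hv⟩ := orth_nondeg (a := vadd a b) fun e => hne (eq_of_vadd_zero e).symm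
    rw [orth_sym, orth_vadd, orth_sym a, orth_sym b] at hv
    by_cases hva : orth v a
    · exact hv (iff_of_true hva (hno v hva))
    · have h := hno _ ((orth_vadd v w a).2 (iff_of_false hva hw))
      exact hv (iff_of_false hva fun hvb => hwb ((orth_vadd v w b).1 h |>.1 hvb))

/-- Three independent vectors have a vector orthogonal to two of them but not to the third. -/
theorem dual_two {a b c : W} (ha : a ≠ 0) (hb : b ≠ 0) (hab : b ≠ a) (hc : c ≠ 0) (hca : c ≠ a)
    (hcb : c ≠ b) (hcab : c ≠ vadd a b) : ∃ v, orth v a ∧ orth v b ∧ ¬ orth v c := by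
  by_contra hno
  push Not at hno
  obtain ⟨w, hwa, hwb⟩ := dual_one ha hb hab
  have key : ∀ v, orth v a → ¬ orth v b → (orth v c ↔ orth w c) := fun v hva hvb => by
    have h := hno (vadd v w) ((orth_vadd v w a).2 (iff_of_true hva hwa))
      ((orth_vadd v w b).2 (iff_of_false hvb hwb))
    exact (orth_vadd v w c).1 h
  by_cases hwc : orth w c
  · obtain ⟨v, hva, hvc⟩ := dual_one ha hc hca
    by_cases hvb : orth v b
    · exact hvc (hno v hva hvb)
    · exact hvc ((key v hva hvb).2 hwc)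
  · have hcb0 : vadd b c ≠ 0 := fun e => hcb (eq_of_vadd_zero e).symm
    have hne : vadd b c ≠ a := fun e => hcab (by
      rw [← e, vadd_comm' (vadd b c) b, ← vadd_right, vadd_self, vadd_comm' 0, vadd_zero'])
    obtain ⟨v, hva, hv⟩ := dual_one ha hcb0 hne
    rw [orth_sym, orth_vadd, orth_sym b, orth_sym c] at hv
    by_cases hvb : orth v b
    · exact hv (iff_of_true hvb (hno v hva hvb))
    · exact hv (iff_of_false hvb fun h => hwc ((key v hva hvb).1 h))

/-- The line of `e1`. -/
def InL (v : W) : Prop := v = 0 ∨ v = e1 ∨ v = om e1 ∨ v = om (om e1)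

theorem line_facts : e2 = om e1 ∧ e1 ≠ 0 ∧ om e1 ≠ 0 ∧ om e1 ≠ e1 ∧ orth e1 (om e1) ∧
    vadd e1 (om e1) = om (om e1) ∧ sing e1 := by
  refine ⟨rfl, ?_⟩
  decide +kernel

theorem orth_InL {v w : W} (h1 : orth v e1) (h2 : orth v (om e1)) (hw : InL w) : orth v w := by
  rcases hw with rfl | rfl | rfl | rfl
  · rw [LargeFischer4.orth_iff_pz]
    have := LargeFischer4.pz_vadd_left e1 e1 v
    rw [vadd_self, CharTwo.add_self_eq_zero] at this
    rwa [LargeFischer4.pz_comm]
  · exact h1
  · exact h2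
  · rw [← line_facts.2.2.2.2.2.1, orth_sym, orth_vadd, orth_sym, orth_sym (om e1)]
    exact iff_of_true h1 h2

theorem InL_self_orth : orth e1 e1 ∧ orth (om e1) (om e1) ∧ orth (om e1) e1 ∧
    sing (om e1) ∧ sing (om (om e1)) ∧ orth (om (om e1)) e1 := by
  decide +kernel

theorem om_om_add (x : W) : vadd x (om x) = om (om x) := by
  have := forall_of_chk (fun n => decide (vadd n (om n) = om (om n))) (by decide +kernel) x
  simpa using this

/-- A vector moved off the line is separated from it. -/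
theorem dual_line {x : W} (hx : ¬ InL x) : ∃ v, orth v e1 ∧ orth v x ∧ ¬ orth v (om x) := by
  have h0 : x ≠ 0 := fun e => hx (Or.inl e)
  refine dual_two line_facts.2.1 h0 (fun e => hx (Or.inr (Or.inl e)))
    (fun e => h0 (om_inj (e.trans (show (0 : W) = om 0 by decide +kernel))))
    (fun e => hx (Or.inr (Or.inr (Or.inr ?_)))) (fun e => h0 (om_fix e))
    (fun e => hx (Or.inr (Or.inr (Or.inl ?_))))
  · rw [← e, om_cube]
  · rw [← om_cube x, ← om_om_add x, e, ← vadd_right x e1, vadd_comm' x e1, vadd_right e1,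
      vadd_self, vadd_zero']

section

variable {G : Type*} [Group G] [Finite G] {z : G} {Q : Subgroup ↥(CG z)} [Q.Normal]
  (C : LargeFischer58.Cfg z Q)

/-- The scalar is induced by an element of `C(z)`. -/
theorem exists_scalar (C : LargeFischer58.Cfg z Q) : ∃ σ, fhom C.act σ = omP := by
  have h := C.range.sq _ (GL6.mul_mem omP_mem omP_mem)
  rw [show omP * omP * (omP * omP) = omP by
    rw [← mul_assoc, ← pow_two, ← pow_succ, ← pow_succ, pow_succ omP 3, omP_cube, one_mul]] at h
  exact h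

/-- An element of order three inducing a normal subgroup of the image is a scalar. -/
theorem scalar_of_normal (C : LargeFischer58.Cfg z Q) {k : Equiv.Perm W}
    (hk : k ∈ (fhom C.act).range) (h3 : k ^ 3 = 1)
    (hn : ∀ g ∈ (fhom C.act).range, g * k * g⁻¹ = k ∨ g * k * g⁻¹ = k⁻¹) :
    k = 1 ∨ k = omP ∨ k = omP * omP := by
  obtain ⟨Mb, Cb, hMn, hCn, hle, hc, hidx, ⟨e⟩⟩ := LargeFischer85.exists_sections C.large
  have := hMn
  have key : ∀ a : ↥(CG z) ⧸ Q, a ^ 3 = 1 → (∀ g, g * a * g⁻¹ = a ∨ g * a * g⁻¹ = a⁻¹) →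
      a ∈ Cb := by
    intro a ha hna
    have haM : a ∈ Mb := by
      have h2 := Subgroup.mul_self_mem_of_index_two hidx a
      have h : a ^ 3 ∈ Mb := by rw [ha]; exact one_mem _
      rw [pow_succ, pow_two] at h
      exact (Mb.mul_mem_cancel_left h2).1 h
    have := hCn
    obtain ⟨f, hf⟩ : ∃ f : ↥Mb →* CfsgLib.U43Mult.G9, f = e.toMonoidHom.comp (QuotientGroup.mk' _) :=
      ⟨_, rfl⟩
    have hfs : Function.Surjective f := hf ▸ e.surjective.comp (QuotientGroup.mk'_surjective _)
    have hnorm : (Subgroup.zpowers (f ⟨a, haM⟩)).Normal := by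
      refine ⟨fun n hn g => ?_⟩
      obtain ⟨i, rfl⟩ := hn
      obtain ⟨b, rfl⟩ := hfs g
      rcases hna b with hb | hb
      · refine ⟨i, ?_⟩
        have : b * ⟨a, haM⟩ * b⁻¹ = (⟨a, haM⟩ : ↥Mb) := Subtype.ext hb
        rw [← conj_zpow, ← map_inv, ← map_mul, ← map_mul, this]
      · refine ⟨-i, ?_⟩
        have : b * ⟨a, haM⟩ * b⁻¹ = (⟨a, haM⟩ : ↥Mb)⁻¹ := Subtype.ext hb
        show f ⟨a, haM⟩ ^ (-i) = f b * f ⟨a, haM⟩ ^ i * (f b)⁻¹
        rw [← conj_zpow, ← map_inv, ← map_mul, ← map_mul, this, map_inv, inv_zpow']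
    by_contra hC
    rcases IsSimpleGroup.eq_bot_or_eq_top_of_normal _ hnorm with h | h
    · rw [Subgroup.zpowers_eq_bot, hf] at h
      have h1 : QuotientGroup.mk' (Cb.subgroupOf Mb) ⟨a, haM⟩ = 1 :=
        e.injective (h.trans (map_one e).symm)
      exact hC (Subgroup.mem_subgroupOf.1 ((QuotientGroup.eq_one_iff (N := Cb.subgroupOf Mb) _).1 h1))
    · have hcard : Nat.card (Subgroup.zpowers (f ⟨a, haM⟩)) ≤ 3 := by
        rw [Nat.card_zpowers]
        refine Nat.le_of_dvd (by norm_num) (orderOf_dvd_of_pow_eq_one ?_)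
        rw [← map_pow, show (⟨a, haM⟩ : ↥Mb) ^ 3 = 1 from Subtype.ext ha, map_one]
      rw [h, Subgroup.card_top, U43Mult.card_G9] at hcard
      omega
  have conv : ∀ {m : Equiv.Perm W}, m ∈ (fhom C.act).range → m ^ 3 = 1 →
      (∀ g ∈ (fhom C.act).range, g * m * g⁻¹ = m ∨ g * m * g⁻¹ = m⁻¹) →
      ∃ a ∈ Cb, C.act a = m := by
    rintro m ⟨h, rfl⟩ hm hmn
    refine ⟨QuotientGroup.mk' Q h, key _ (C.std.model.act_inj ?_) (fun g => ?_), rfl⟩
    · rw [map_pow, map_one]; exact hm
    · obtain ⟨g, rfl⟩ := QuotientGroup.mk'_surjective Q g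
      rcases hmn _ ⟨g, rfl⟩ with e' | e'
      · exact Or.inl (C.std.model.act_inj (by simpa [fhom] using e'))
      · exact Or.inr (C.std.model.act_inj (by simpa [fhom] using e'))
  obtain ⟨σ, hσ⟩ := exists_scalar C
  have hgood : ∀ g ∈ (fhom C.act).range, g * omP * g⁻¹ = omP ∨ g * omP * g⁻¹ = omP⁻¹ := by
    intro g hg
    have hgg : IsGood g := C.range.le hg
    rcases hgg.semi with hs | hs
    · refine Or.inl (mul_inv_eq_iff_eq_mul.2 (Equiv.ext fun n => ?_))
      exact hs n
    · refine Or.inr (mul_inv_eq_iff_eq_mul.2 (Equiv.ext fun n => ?_))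
      exact hs n
  obtain ⟨o, ho, hoe⟩ := conv ⟨σ, hσ⟩ omP_cube hgood
  obtain ⟨a, haC, hae⟩ := conv hk h3 hn
  have h1 : orderOf o = 3 := orderOf_eq_prime (p := 3)
    (C.std.model.act_inj (by rw [map_pow, hoe, omP_cube, map_one]))
    fun e' => line_facts.2.2.2.1 (by
      rw [e', map_one] at hoe
      exact congrArg (fun f : Equiv.Perm W => f e1) hoe.symm)
  have hz : Cb = Subgroup.zpowers o := by
    refine (Subgroup.eq_of_le_of_card_ge (Subgroup.zpowers_le.2 ho) ?_).symm
    rw [Nat.card_zpowers, h1, hc]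
  classical
  rw [hz, mem_zpowers_iff_mem_range_orderOf, h1, Finset.mem_image] at haC
  obtain ⟨j, hj, rfl⟩ := haC
  rw [Finset.mem_range] at hj
  interval_cases j
  · left; rw [← hae, pow_zero, map_one]
  · right; left; rw [← hae, pow_one, hoe]
  · right; right; rw [← hae, pow_two, map_mul, hoe]

end

end CfsgLib.AutLf48
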