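import Cfsg.Agent.AutLf48.Frame
import Cfsg.Agent.AutLf48.Core

/-!
An outer element centralizing the perfect part of the centralizer of `t`: it is an involution, fixes
a subgroup of index four of `Q` and gives the configuration.
-/

set_option autoImplicit false
set_option maxRecDepth 100000

namespace CfsgLib.AutLf48

open Cfsg CfsgLib.LargeFischer85 CfsgLib.LargeFischer28 CfsgLib.LargeFischer45
open CfsgLib.LargeFischer58 (e1 e2)

universe w

/-- The extraspecial subgroup with its frame coordinates, in the big group. -/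
structure Vec {X : Type w} [Group X] (G₀ : Subgroup X) (z : X) (R : Subgroup X) where
  P : X → W
  R_le : R ≤ G₀ ⊓ Subgroup.centralizer ({z} : Set X)
  normal : ∀ g, Commute g z → ∀ q ∈ R, g * q * g⁻¹ ∈ R
  z_mem : z ∈ R
  z_sq : z * z = 1
  z_ne : z ≠ 1
  mul : ∀ a ∈ R, ∀ b ∈ R, P (a * b) = vadd (P a) (P b)
  zero : ∀ a ∈ R, (P a = 0 ↔ a = 1 ∨ a = z)
  surj : ∀ v, ∃ a ∈ R, P a = v
  comm : ∀ a ∈ R, ∀ b ∈ R, (Commute a b ↔ orth (P a) (P b))
  sq : ∀ a ∈ R, (sing (P a) ↔ a * a = 1)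
  card : Nat.card R = 2 ^ 13
  self : ∀ g, Commute g z → (∀ q ∈ R, Commute g q) → g ∈ R
  σ : X
  σ_mem : σ ∈ G₀ ⊓ Subgroup.centralizer ({z} : Set X)
  σ_cube : σ ^ 3 ∈ R
  σ_act : ∀ q ∈ R, P (σ * q * σ⁻¹) = om (P q)
  σ_auto : ∀ d, Commute d z → (∀ q ∈ R, P (d * σ * d⁻¹ * q * (d * σ * d⁻¹)⁻¹) = om (P q)) ∨
    ∀ q ∈ R, P (d * σ * d⁻¹ * q * (d * σ * d⁻¹)⁻¹) = om (om (P q))

namespace Vec

variable {X : Type w} [Group X] [Finite X] {G₀ : Subgroup X} {z : X} {R : Subgroup X}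
  (V : Vec G₀ z R)
include V

theorem comm_z {q : X} (hq : q ∈ R) : Commute q z :=
  Subgroup.mem_centralizer_singleton_iff.1 (V.R_le hq).2

theorem cases_of_P {a b : X} (ha : a ∈ R) (hb : b ∈ R) (h : V.P a = V.P b) :
    a = b ∨ a = b * z := by
  have h0 : V.P (b⁻¹ * a) = 0 := by
    have e := V.mul b hb (b⁻¹ * a) (mul_mem (inv_mem hb) ha)
    rw [mul_inv_cancel_left, h] at e
    have e' := congrArg (vadd (V.P b)) e
    rw [← vadd_right, vadd_self, vadd_comm' 0, vadd_zero'] at e'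
    exact e'.symm
  rcases (V.zero _ (mul_mem (inv_mem hb) ha)).1 h0 with e | e
  · exact Or.inl (inv_mul_eq_one.1 e).symm
  · exact Or.inr (inv_mul_eq_iff_eq_mul.1 e)

/-- The pairing of `R` with values in the centre. -/
theorem conj_cases {a b : X} (ha : a ∈ R) (hb : b ∈ R) :
    (orth (V.P a) (V.P b) → a * b * a⁻¹ = b) ∧ (¬ orth (V.P a) (V.P b) → a * b * a⁻¹ = b * z) := by
  refine ⟨fun h => by rw [((V.comm a ha b hb).2 h).eq, mul_inv_cancel_right], fun h => ?_⟩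
  have hm : a * b * a⁻¹ ∈ R := mul_mem (mul_mem ha hb) (inv_mem ha)
  have hp : V.P (a * b * a⁻¹) = V.P b := by
    have e1 := V.mul (a * b) (mul_mem ha hb) a⁻¹ (inv_mem ha)
    have e2 := V.mul a ha a⁻¹ (inv_mem ha)
    rw [mul_inv_cancel, (V.zero 1 (one_mem _)).2 (Or.inl rfl)] at e2
    rw [← eq_of_vadd_zero e2.symm] at e1
    rw [e1, V.mul a ha b hb, vadd_comm' (V.P a) (V.P b), vadd_right, vadd_self, vadd_zero']
  rcases V.cases_of_P hm hb hp with e | e
  · exact absurd ((V.comm a ha b hb).1 (mul_inv_eq_iff_eq_mul.1 e)) h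
  · exact e

theorem P_one : V.P 1 = 0 := (V.zero 1 (one_mem _)).2 (Or.inl rfl)

theorem P_inv {q : X} (hq : q ∈ R) : V.P q⁻¹ = V.P q := by
  have h := V.mul q hq q⁻¹ (inv_mem hq)
  rw [mul_inv_cancel, V.P_one] at h
  exact (eq_of_vadd_zero h.symm).symm

theorem P_z : V.P z = 0 := (V.zero z V.z_mem).2 (Or.inr rfl)

/-- Inner automorphisms of `R` realize every automorphism trivial modulo the centre. -/
theorem mem_of_trivial {g : X} (hg : Commute g z)
    (h : ∀ q ∈ R, V.P (g * q * g⁻¹) = V.P q) : g ∈ R := by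
  classical
  let Φ : W → (Fin 12 → Bool) := fun a j => decide (orth a (bas j))
  have hinj : Function.Injective Φ := by
    intro a b hab
    refine eq_of_vadd_zero (Classical.byContradiction fun hne => ?_)
    obtain ⟨v, hv⟩ := orth_nondeg hne
    have hbas : ∀ j, orth (bas j) (vadd a b) := fun j => by
      rw [orth_sym, orth_vadd]
      have := congrFun hab j
      simpa [Φ] using this
    refine hv ?_
    clear hne
    induction hn : v.val using Nat.strong_induction_on generalizing v with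
    | _ n ih =>
      subst hn
      by_cases h0 : v.val = 0
      · rw [show v = 0 from Fin.ext h0, orth_sym]
        have := orth_vadd (vadd a b) (vadd a b) (vadd a b)
        rw [vadd_self] at this
        rw [LargeFischer4.orth_iff_pz, LargeFischer4.pz_comm]
        have e := LargeFischer4.pz_vadd_left 0 0 (vadd a b)
        rw [vadd_self, CharTwo.add_self_eq_zero] at e
        exact e
      · obtain ⟨i, hi⟩ := LargeFischer4.lowbit_check v h0
        have hlt : v.val ^^^ 2 ^ i.val < 4096 := lt_trans hi v.isLt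
        have hval : (vadd v (bas i)).val < v.val := by
          rw [vadd_val]; exact hi
        by_cases hn : orth (vadd v (bas i)) (vadd a b)
        · exact (by
            have e : v = vadd (vadd v (bas i)) (bas i) := by rw [vadd_right, vadd_self, vadd_zero']
            rw [e, orth_vadd]
            exact iff_of_true hn (hbas i))
        · exact absurd (ih _ hval _ hn rfl) hn
  have hsur : Function.Surjective Φ :=
    ((Fintype.bijective_iff_injective_and_card Φ).2 ⟨hinj, by simp⟩).2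
  choose l hl hPl using fun j => V.surj (bas j)
  obtain ⟨a, ha⟩ := hsur fun j => decide (g * l j * g⁻¹ = l j)
  obtain ⟨r, hr, rfl⟩ := V.surj a
  have hfix : ∀ j, r * l j * r⁻¹ = g * l j * g⁻¹ := fun j => by
    have hc : g * l j * g⁻¹ = l j ∨ g * l j * g⁻¹ = l j * z :=
      V.cases_of_P (V.normal g hg _ (hl j)) (hl j) (h _ (hl j))
    have e := congrFun ha j
    simp only [Φ, decide_eq_decide, ← hPl] at e
    obtain ⟨c1, c2⟩ := V.conj_cases hr (hl j)
    rcases hc with hc | hc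
    · rw [hc, c1 (e.2 hc)]
    · rw [hc, c2 fun o => ?_]
      have := e.1 o
      rw [hc, mul_eq_left] at this
      exact V.z_ne this
  let S : Subgroup X := Subgroup.centralizer ({r⁻¹ * g} : Set X) ⊓ R
  have hgz : Commute (r⁻¹ * g) z := (V.comm_z hr).inv_left.mul_left hg
  have hzS : z ∈ S := ⟨Subgroup.mem_centralizer_singleton_iff.2 hgz.symm.eq, V.z_mem⟩
  have hlS : ∀ j, l j ∈ S := fun j => by
    refine ⟨Subgroup.mem_centralizer_singleton_iff.2 ?_, hl j⟩
    calc l j * (r⁻¹ * g) = r⁻¹ * (r * l j * r⁻¹) * g := by group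
      _ = r⁻¹ * g * l j := by rw [hfix j]; group
  have hall : ∀ v : W, ∃ x ∈ S, V.P x = v := by
    intro v
    induction hn : v.val using Nat.strong_induction_on generalizing v with
    | _ n ih =>
      subst hn
      by_cases h0 : v.val = 0
      · exact ⟨1, one_mem _, V.P_one.trans (Fin.ext h0).symm⟩
      · obtain ⟨i, hi⟩ := LargeFischer4.lowbit_check v h0
        obtain ⟨x, hx, hxe⟩ := ih _ (show (vadd v (bas i)).val < v.val by rw [vadd_val]; exact hi) _ rfl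
        exact ⟨x * l i, mul_mem hx (hlS i), by
          rw [V.mul x hx.2 _ (hl i), hxe, hPl, vadd_right, vadd_self, vadd_zero']⟩
  have hcR : r⁻¹ * g ∈ R := V.self _ hgz fun q hq => by
    obtain ⟨x, hx, hxe⟩ := hall (V.P q)
    have hqS : q ∈ S := by
      rcases V.cases_of_P hq hx.2 hxe.symm with e | e
      · exact e ▸ hx
      · exact e ▸ mul_mem hx hzS
    exact (Subgroup.mem_centralizer_singleton_iff.1 hqS.1).symm
  simpa using mul_mem hr hcR

/-- Conjugation preserves orthogonality. -/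
theorem orth_conj {g a b : X} (hg : Commute g z) (ha : a ∈ R) (hb : b ∈ R) :
    orth (V.P (g * a * g⁻¹)) (V.P (g * b * g⁻¹)) ↔ orth (V.P a) (V.P b) := by
  rw [← V.comm _ (V.normal g hg a ha) _ (V.normal g hg b hb), ← V.comm a ha b hb]
  exact ⟨fun h => by simpa [mul_assoc] using (h.map (MulAut.conj g⁻¹)),
    fun h => h.map (MulAut.conj g)⟩

end Vec

theorem five : ∃ f : Fin 5 → W, Function.Injective f ∧
    ∀ i, orth (f i) e1 ∧ orth (om (f i)) e1 := by
  have : ∃ l : List W, l.length = 5 ∧ l.Nodup ∧ ∀ v ∈ l, orth v e1 ∧ orth (om v) e1 :=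
    ⟨((List.finRange 4096).filter fun v => decide (orth v e1 ∧ orth (om v) e1)).take 5,
      by decide +kernel, by decide +kernel, by decide +kernel⟩
  obtain ⟨l, hl, hn, h⟩ := this
  exact ⟨fun i => l[i.val], fun i j e => Fin.ext ((hn.getElem_inj_iff).1 e),
    fun i => h _ (List.getElem_mem _)⟩

section core

variable {X : Type w} [Group X] [Finite X] {G₀ : Subgroup X} {z : X} {R : Subgroup X}

/-- The local analysis. -/
theorem core_of (V : Vec G₀ z R) (hidx : G₀.index = 2) {d t : X} (hdG : d ∉ G₀)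
    (hdz : Commute d z) (hdt : Commute d t) (hdd : d * d = 1 ∨ d * d = t) (htR : t ∈ R)
    (hPt : V.P t = e1) (hnc : ∀ g ∈ G₀, g * t * g⁻¹ ≠ z)
    (hct : ∀ g, Commute g t → g * d * g⁻¹ = d ∨ g * d * g⁻¹ = d * t)
    (hns : ∀ g, Commute g t → g * d * g⁻¹ = d * t →
      ∃ y : ↥(G₀ ⊓ Subgroup.centralizer ({d} : Set X)), Commute (y : X) t ∧ ¬ Commute g y)
    (hA : ∀ a ∈ R, ∀ b ∈ R, Commute a t → Commute b t → ¬ Commute a d → ¬ Commute b d →
      Commute (a * b) d) :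
    ∃ u v, ∃ _ : Core G₀ z d t u v, True := by
  have hdn : ∀ q ∈ R, d * q * d⁻¹ ∈ R := fun q hq => V.normal d hdz q hq
  have hcomt : ∀ a ∈ R, (Commute a t ↔ orth (V.P a) e1) := fun a ha => hPt ▸ V.comm a ha t htR
  obtain ⟨D, hD⟩ : ∃ D : X → W, ∀ q, D q = V.P (d * q * d⁻¹ * q⁻¹) := ⟨_, fun _ => rfl⟩
  have hDv : ∀ q ∈ R, D q = vadd (V.P (d * q * d⁻¹)) (V.P q) := fun q hq => by
    rw [hD, V.mul _ (hdn q hq) _ (inv_mem hq), V.P_inv hq]
  -- a vector fixed by `d` is orthogonal to all commutators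
  have hperp : ∀ a ∈ R, V.P (d * a * d⁻¹) = V.P a → ∀ q ∈ R, orth (D q) (V.P a) := by
    intro a ha he q hq
    rw [hDv q hq, orth_vadd]
    have := V.orth_conj hdz hq ha
    rwa [he] at this
  have hperpc : ∀ a ∈ R, Commute a d → ∀ q ∈ R, orth (D q) (V.P a) := fun a ha hc =>
    hperp a ha (by rw [← hc.eq, mul_inv_cancel_right])
  have hsame : ∀ a ∈ R, ∀ b ∈ R, Commute a t → Commute b t → (Commute a d ↔ Commute b d) →
      Commute (a * b) d := fun a ha b hb hat hbt h => by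
    by_cases hc : Commute a d
    · exact hc.mul_left (h.1 hc)
    · exact hA a ha b hb hat hbt hc fun e => hc (h.2 e)
  have hσz : Commute V.σ z := Subgroup.mem_centralizer_singleton_iff.1 V.σ_mem.2
  have hσn : ∀ q ∈ R, V.σ * q * V.σ⁻¹ ∈ R := fun q hq => V.normal _ hσz q hq
  -- `d` commutes with the scalar
  have hlin : ∀ q ∈ R, V.P (d * V.σ * d⁻¹ * q * (d * V.σ * d⁻¹)⁻¹) = om (V.P q) := by
    refine (V.σ_auto d hdz).resolve_right fun hanti => ?_
    classical
    obtain ⟨f, hf, hfo⟩ := five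
    choose l hl hPl using fun i => V.surj (f i)
    obtain ⟨i, j, hij, hpar⟩ := Fintype.exists_ne_map_eq_of_card_lt
      (fun i : Fin 5 => (decide (Commute (l i) d), decide (Commute (V.σ * l i * V.σ⁻¹) d)))
      (by simp)
    simp only [Prod.mk.injEq, decide_eq_decide] at hpar
    have ht1 : ∀ i, Commute (l i) t ∧ Commute (V.σ * l i * V.σ⁻¹) t := fun i =>
      ⟨(hcomt _ (hl i)).2 (hPl i ▸ (hfo i).1),
        (hcomt _ (hσn _ (hl i))).2 (by rw [V.σ_act _ (hl i), hPl]; exact (hfo i).2)⟩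
    have c1 := hsame _ (hl i) _ (hl j) (ht1 i).1 (ht1 j).1 hpar.1
    have c2 := hsame _ (hσn _ (hl i)) _ (hσn _ (hl j)) (ht1 i).2 (ht1 j).2 hpar.2
    have hq := mul_mem (hl i) (hl j)
    have e := hanti _ hq
    rw [show d * V.σ * d⁻¹ * (l i * l j) * (d * V.σ * d⁻¹)⁻¹ =
        d * (V.σ * l i * V.σ⁻¹ * (V.σ * l j * V.σ⁻¹)) * d⁻¹ by
      calc d * V.σ * d⁻¹ * (l i * l j) * (d * V.σ * d⁻¹)⁻¹
          = d * V.σ * (d⁻¹ * (l i * l j) * d) * V.σ⁻¹ * d⁻¹ := by group
        _ = d * V.σ * (l i * l j) * V.σ⁻¹ * d⁻¹ := by rw [mul_assoc d⁻¹, c1.eq, inv_mul_cancel_left]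
        _ = _ := by group, ← c2.eq, mul_inv_cancel_right,
      show V.σ * l i * V.σ⁻¹ * (V.σ * l j * V.σ⁻¹) = V.σ * (l i * l j) * V.σ⁻¹ by group,
      V.σ_act _ hq] at e
    have h0 : V.P (l i * l j) = 0 := om_fix (om_inj e).symm
    rw [V.mul _ (hl i) _ (hl j), hPl, hPl] at h0
    exact hij (hf (eq_of_vadd_zero h0))
  have hDσ : ∀ q ∈ R, D (V.σ * q * V.σ⁻¹) = om (D q) := by
    intro q hq
    rw [hDv _ (hσn q hq), hDv q hq, V.σ_act q hq, om_add,
      show d * (V.σ * q * V.σ⁻¹) * d⁻¹ = d * V.σ * d⁻¹ * (d * q * d⁻¹) * (d * V.σ * d⁻¹)⁻¹ by group,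
      hlin _ (hdn q hq)]
  -- the commutators fill the line of `e1`
  have hline : ∀ q ∈ R, InL (D q) := by
    intro q hq
    by_contra hx
    obtain ⟨v1, h1e, h1x, h1o⟩ := dual_line hx
    have hσq := hσn q hq
    have hx0 : D q ≠ 0 := fun e => hx (Or.inl e)
    have ho0 : om (D q) ≠ 0 := fun e => hx0 (om_inj (e.trans (show (0 : W) = om 0 by decide +kernel)))
    obtain ⟨v2, h2e, h2o, h2x⟩ := dual_two line_facts.2.1 ho0
      (fun e => hx (Or.inr (Or.inr (Or.inr (by rw [← e, om_cube]))))) hx0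
      (fun e => hx (Or.inr (Or.inl e))) (fun e => hx0 (om_fix e.symm))
      (fun e => hx (Or.inr (Or.inr (Or.inl (by
        have h := congrArg (fun y => vadd y (om (D q))) e
        simp only [vadd_right, vadd_self, vadd_zero', om_om_add] at h
        rw [← om_cube (D q), h])))))
    obtain ⟨a, ha, rfl⟩ := V.surj v1
    obtain ⟨b, hb, rfl⟩ := V.surj v2
    have hda : ¬ Commute a d := fun hc => h1o (by
      rw [orth_sym, ← hDσ q hq]; exact hperpc a ha hc _ hσq)
    have hdb : ¬ Commute b d := fun hc => h2x (by rw [orth_sym]; exact hperpc b hb hc _ hq)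
    have hab := hperpc _ (mul_mem ha hb) (hA a ha b hb ((hcomt a ha).2 h1e) ((hcomt b hb).2 h2e)
      hda hdb) q hq
    rw [V.mul a ha b hb, orth_sym, orth_vadd] at hab
    exact h2x (hab.1 h1x)
  have hex : ∃ q ∈ R, D q ≠ 0 := by
    by_contra hno
    push Not at hno
    exact hdG (V.R_le (V.mem_of_trivial hdz fun q hq =>
      eq_of_vadd_zero ((hDv q hq).symm.trans (hno q hq)))).1
  have honto : (∃ q ∈ R, D q = e1) ∧ ∃ q ∈ R, D q = om e1 := by
    obtain ⟨q, hq, h⟩ := hex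
    have hq1 := hσn q hq
    have hq2 := hσn _ hq1
    rcases hline q hq with e | e | e | e
    · exact absurd e h
    · exact ⟨⟨q, hq, e⟩, ⟨_, hq1, by rw [hDσ q hq, e]⟩⟩
    · exact ⟨⟨_, hq2, by rw [hDσ _ hq1, hDσ q hq, e, om_cube]⟩, ⟨q, hq, e⟩⟩
    · exact ⟨⟨_, hq1, by rw [hDσ q hq, e, om_cube]⟩, ⟨_, hq2, by
        rw [hDσ _ hq1, hDσ q hq, e, om_cube]⟩⟩
  have hfix : ∀ a ∈ R, V.P (d * a * d⁻¹) = V.P a →
      orth (V.P a) e1 ∧ orth (V.P a) (om e1) := fun a ha h => by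
    obtain ⟨⟨q, hq, e⟩, q', hq', e'⟩ := honto
    exact ⟨by rw [orth_sym, ← e]; exact hperp a ha h q hq,
      by rw [orth_sym, ← e']; exact hperp a ha h q' hq'⟩
  have hperpA : ∀ a ∈ R, Commute a d → orth (V.P a) e1 ∧ orth (V.P a) (om e1) := fun a ha hc =>
    hfix a ha (by rw [← hc.eq, mul_inv_cancel_right])
  obtain ⟨va, hva1, hva2⟩ := dual_one line_facts.2.1 line_facts.2.2.1 line_facts.2.2.2.1
  obtain ⟨a0, ha0, rfl⟩ := V.surj va
  have ha0t : Commute a0 t := (hcomt a0 ha0).2 hva1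
  have ha0d : ¬ Commute a0 d := fun hc => hva2 (hperpA a0 ha0 hc).2
  have hCd : ∀ a ∈ R, orth (V.P a) e1 → orth (V.P a) (om e1) → Commute a d := by
    intro a ha h1 h2
    by_contra hc
    have := (hperpA _ (mul_mem ha ha0) (hA a ha a0 ha0 ((hcomt a ha).2 h1) ha0t hc ha0d)).2
    rw [V.mul a ha a0 ha0, orth_vadd] at this
    exact hva2 (this.1 h2)
  have hLd : ∀ w ∈ R, InL (V.P w) → Commute w d := fun w hw h => by
    rcases h with e | e | e | e <;> refine hCd w hw ?_ ?_ <;> rw [e]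
    · exact orth_InL (v := e1) InL_self_orth.1 line_facts.2.2.2.2.1 (Or.inl rfl) |> (orth_sym _ _).1
    · exact orth_InL (v := om e1) InL_self_orth.2.2.1 InL_self_orth.2.1 (Or.inl rfl) |> (orth_sym _ _).1
    · exact InL_self_orth.1
    · exact line_facts.2.2.2.2.1
    · exact InL_self_orth.2.2.1
    · exact InL_self_orth.2.1
    · exact InL_self_orth.2.2.2.2.2
    · rw [← line_facts.2.2.2.2.2.1, orth_vadd]
      exact iff_of_true line_facts.2.2.2.2.1 InL_self_orth.2.1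
  have hLsq : ∀ w ∈ R, InL (V.P w) → w * w = 1 := fun w hw h => (V.sq w hw).1 (by
    rcases h with e | e | e | e <;> rw [e]
    · decide +kernel
    · exact line_facts.2.2.2.2.2.2
    · exact InL_self_orth.2.2.2.1
    · exact InL_self_orth.2.2.2.2.1)
  -- `d` is an involution
  have hd : d * d = 1 := by
    refine hdd.resolve_right fun e => ?_
    obtain ⟨v, hv⟩ := orth_nondeg line_facts.2.1
    obtain ⟨q, hq, rfl⟩ := V.surj v
    obtain ⟨w, hw⟩ : ∃ w, d * q * d⁻¹ * q⁻¹ = w := ⟨_, rfl⟩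
    have hwR : w ∈ R := hw ▸ mul_mem (hdn q hq) (inv_mem hq)
    have hL : InL (V.P w) := by rw [← hw, ← hD]; exact hline q hq
    have : d * d * q * (d * d)⁻¹ = q := by
      calc d * d * q * (d * d)⁻¹ = d * w * (q * d⁻¹) := by rw [← hw]; group
        _ = w * (d * q * d⁻¹ * q⁻¹) * q := by rw [← (hLd w hwR hL).eq]; group
        _ = q := by rw [hw, hLsq w hwR hL, one_mul]
    rw [e] at this
    exact hv (hPt ▸ ((V.comm q hq t htR).1 (mul_inv_eq_iff_eq_mul.1 this).symm))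
  have hdi : d⁻¹ = d := inv_eq_of_mul_eq_one_right hd
  obtain ⟨F, hF⟩ : ∃ F : X → X, ∀ q, F q = d * q * d * q⁻¹ := ⟨_, fun _ => rfl⟩
  have horb : ∀ q, q * d * q⁻¹ = d * F q := fun q => by
    rw [hF, ← mul_assoc, ← mul_assoc, ← mul_assoc, hd, one_mul]
  have hFR : ∀ q ∈ R, F q ∈ R ∧ V.P (F q) = D q := fun q hq => by
    rw [hF, hD, hdi]
    have h := mul_mem (hdn q hq) (inv_mem hq)
    rw [hdi] at h
    exact ⟨h, rfl⟩
  have hnz : ∀ q ∈ R, q * d * q⁻¹ ≠ d * z := by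
    intro q hq e
    rw [horb] at e
    have h0 : D q = 0 := by rw [← (hFR q hq).2, mul_left_cancel e, V.P_z]
    obtain ⟨o1, o2⟩ := hfix q hq (eq_of_vadd_zero ((hDv q hq).symm.trans h0))
    have := mul_left_cancel e
    rw [hF, mul_assoc d q d, (hCd q hq o1 o2).eq, ← mul_assoc, hd, one_mul, mul_inv_cancel] at this
    exact V.z_ne this.symm
  -- representatives of the orbit
  have horbit : ∀ r ∈ R, InL (V.P r) → ∃ q ∈ R, F q = r ∨ F q = r * z := by
    intro r hr h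
    have : ∀ w, (∃ q ∈ R, D q = w) → V.P r = w → ∃ q ∈ R, F q = r ∨ F q = r * z := by
      rintro w ⟨q, hq, e⟩ hw
      exact ⟨q, hq, V.cases_of_P (hFR q hq).1 hr (by rw [(hFR q hq).2, e, hw])⟩
    rcases h with e | e | e | e
    · exact this _ ⟨1, one_mem _, by rw [hD]; simpa using V.P_one⟩ e
    · exact this _ honto.1 e
    · exact this _ honto.2 e
    · obtain ⟨q, hq, h'⟩ := honto.2
      exact this _ ⟨_, hσn q hq, by rw [hDσ q hq, h']⟩ e
  -- an element of order three on the quotient commuting with `d`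
  obtain ⟨q1, hq1⟩ : ∃ q1, d * (V.σ * d * V.σ⁻¹) = q1 := ⟨_, rfl⟩
  have hρ : d * V.σ * d⁻¹ * V.σ⁻¹ = q1 := by rw [hdi, ← hq1]; group
  have hq1R : q1 ∈ R := by
    rw [← hρ]
    refine V.mem_of_trivial ((((hdz.mul_left hσz).mul_left hdz.inv_left)).mul_left hσz.inv_left)
      fun q hq => ?_
    have hq' : V.σ⁻¹ * q * V.σ ∈ R := by simpa using V.normal _ hσz.inv_left q hq
    have e := hlin _ hq'
    rw [← V.σ_act _ hq', show V.σ * (V.σ⁻¹ * q * V.σ) * V.σ⁻¹ = q by group] at e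
    rw [← e]
    congr 1
    group
  have hq1L : InL (V.P q1) := by
    by_contra hx
    obtain ⟨v, hv1, hv2, hv3⟩ := dual_two line_facts.2.1 line_facts.2.2.1 line_facts.2.2.2.1
      (fun e => hx (Or.inl e)) (fun e => hx (Or.inr (Or.inl e)))
      (fun e => hx (Or.inr (Or.inr (Or.inl e))))
      (fun e => hx (Or.inr (Or.inr (Or.inr (e.trans line_facts.2.2.2.2.2.1)))))
    obtain ⟨a, ha, rfl⟩ := V.surj v
    have ha' : V.σ⁻¹ * a * V.σ ∈ R := by simpa using V.normal _ hσz.inv_left a ha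
    have hPa : om (V.P (V.σ⁻¹ * a * V.σ)) = V.P a := by
      rw [← V.σ_act _ ha']; congr 1; group
    have hconj : ∀ x : W, orth (V.P (V.σ⁻¹ * a * V.σ)) x ↔ orth (V.P a) (om x) := fun x => by
      obtain ⟨b, hb, rfl⟩ := V.surj x
      rw [← V.orth_conj hσz ha' hb, V.σ_act _ hb,
        show V.σ * (V.σ⁻¹ * a * V.σ) * V.σ⁻¹ = a by group]
    have hc : Commute (V.σ⁻¹ * a * V.σ) d := hCd _ ha' ((hconj _).2 hv2) ((hconj _).2 (by
      rw [← line_facts.2.2.2.2.2.1, orth_sym, orth_vadd, orth_sym, orth_sym (om e1)]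
      exact iff_of_true hv1 hv2))
    refine hv3 ((V.comm a ha q1 hq1R).1 ?_)
    rw [← hq1]
    refine (hCd a ha hv1 hv2).mul_right ?_
    have := hc.map (MulAut.conj V.σ)
    simpa [mul_assoc] using this
  obtain ⟨q, hq, hFq⟩ := horbit q1 hq1R hq1L
  have hqz := V.comm_z hq
  have hs2 : ∀ w, V.P (q⁻¹ * V.σ * (w : X) * (q⁻¹ * V.σ)⁻¹) = V.P (V.σ * w * V.σ⁻¹) ∨ w ∉ R := by
    intro w
    by_cases hw : w ∈ R
    · left
      rw [show q⁻¹ * V.σ * w * (q⁻¹ * V.σ)⁻¹ = q⁻¹ * (V.σ * w * V.σ⁻¹) * q by group,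
        V.mul _ (mul_mem (inv_mem hq) (hσn w hw)) _ hq, V.mul _ (inv_mem hq) _ (hσn w hw),
        V.P_inv hq, vadd_comm' (V.P q), vadd_right, vadd_self, vadd_zero']
    · exact Or.inr hw
  obtain ⟨s, hs⟩ : ∃ s, q⁻¹ * V.σ = s := ⟨_, rfl⟩
  have hsz : Commute s z := hs ▸ hqz.inv_left.mul_left hσz
  have hsP : ∀ w ∈ R, V.P (s * w * s⁻¹) = om (V.P w) := fun w hw => by
    rw [← hs, (hs2 w).resolve_right (not_not_intro hw), V.σ_act w hw]
  have hsn : ∀ w ∈ R, s * w * s⁻¹ ∈ R := fun w hw => V.normal s hsz w hw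
  have hs3 : s * s * s ∈ R := V.mem_of_trivial ((hsz.mul_left hsz).mul_left hsz) fun w hw => by
    rw [show s * s * s * w * (s * s * s)⁻¹ = s * (s * (s * w * s⁻¹) * s⁻¹) * s⁻¹ by group,
      hsP _ (hsn _ (hsn w hw)), hsP _ (hsn w hw), hsP w hw, om_cube]
  have hσd : V.σ * d * V.σ⁻¹ = d * q1 := by rw [← hq1, ← mul_assoc, hd, one_mul]
  have hsd : Commute s d := by
    rcases hFq with e | e
    · refine mul_inv_eq_iff_eq_mul.1 ?_
      rw [← hs, show q⁻¹ * V.σ * d * (q⁻¹ * V.σ)⁻¹ = q⁻¹ * (V.σ * d * V.σ⁻¹) * q by group, hσd, ← e,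
        ← horb]
      group
    · exfalso
      have hsdz : s * d * s⁻¹ = d * z := by
        have hzz : q1 = F q * z := by rw [e, mul_assoc, V.z_sq, mul_one]
        rw [← hs, show q⁻¹ * V.σ * d * (q⁻¹ * V.σ)⁻¹ = q⁻¹ * (V.σ * d * V.σ⁻¹) * q by group, hσd, hzz,
          ← mul_assoc d, ← horb,
          show q⁻¹ * (q * d * q⁻¹ * z) * q = d * q⁻¹ * (z * q) by group, ← hqz.eq]
        group
      refine hnz _ hs3 ?_
      have hz3 : s * z * s⁻¹ = z := by rw [hsz.eq, mul_inv_cancel_right]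
      have h2 : s * (d * z) * s⁻¹ = d := by
        rw [conj_mul.symm, hsdz, hz3, mul_assoc, V.z_sq, mul_one]
      calc s * s * s * d * (s * s * s)⁻¹ = s * (s * (s * d * s⁻¹) * s⁻¹) * s⁻¹ := by group
        _ = d * z := by rw [hsdz, h2, hsdz]
  obtain ⟨u, hu⟩ : ∃ u, s * t * s⁻¹ = u := ⟨_, rfl⟩
  obtain ⟨v, hv⟩ : ∃ v, s * u * s⁻¹ = v := ⟨_, rfl⟩
  have huR : u ∈ R := hu ▸ hsn t htR
  have hvR : v ∈ R := hv ▸ hsn u huR
  have hPu : V.P u = om e1 := by rw [← hu, hsP t htR, hPt]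
  have hPv : V.P v = om (om e1) := by rw [← hv, hsP u huR, hPu]
  have hsv : s * v * s⁻¹ = t := by
    have hc : Commute (s * s * s) t := (hcomt _ hs3).2
      (hperpA _ hs3 ((hsd.mul_left hsd).mul_left hsd)).1
    rw [← hv, ← hu, show s * (s * (s * t * s⁻¹) * s⁻¹) * s⁻¹ = s * s * s * t * (s * s * s)⁻¹ by group,
      hc.eq, mul_inv_cancel_right]
  have hF0 : a0 * d * a0⁻¹ = d * t := (hct a0 ha0t).resolve_left fun e =>
    ha0d (mul_inv_eq_iff_eq_mul.1 e)
  have hGm : ∀ x ∈ R, InL (V.P x) → x ∈ G₀ ⊓ Subgroup.centralizer ({d} : Set X) := fun x hx h =>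
    ⟨(V.R_le hx).1, Subgroup.mem_centralizer_singleton_iff.2 (hLd x hx h).eq⟩
  have hdu : (s * a0 * s⁻¹) * d * (s * a0 * s⁻¹)⁻¹ = d * u := by
    calc (s * a0 * s⁻¹) * d * (s * a0 * s⁻¹)⁻¹ = s * (a0 * (s⁻¹ * d * s) * a0⁻¹) * s⁻¹ := by group
      _ = s * (a0 * d * a0⁻¹) * s⁻¹ := by rw [mul_assoc s⁻¹, hsd.symm.eq, inv_mul_cancel_left]
      _ = d * u := by rw [hF0, ← conj_mul, hsd.eq, mul_inv_cancel_right, hu]
  have hdv : ∃ x ∈ R, x * d * x⁻¹ = d * v := by
    refine ⟨s * (s * a0 * s⁻¹) * s⁻¹, hsn _ (hsn a0 ha0), ?_⟩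
    calc s * (s * a0 * s⁻¹) * s⁻¹ * d * (s * (s * a0 * s⁻¹) * s⁻¹)⁻¹
        = s * ((s * a0 * s⁻¹) * (s⁻¹ * d * s) * (s * a0 * s⁻¹)⁻¹) * s⁻¹ := by
          simp only [mul_inv_rev, inv_inv, mul_assoc]
      _ = d * v := by
        rw [mul_assoc s⁻¹, hsd.symm.eq, inv_mul_cancel_left, hdu, ← conj_mul, hsd.eq,
          mul_inv_cancel_right, hv]
  have hcm : ∀ {a b : X}, a ∈ R → b ∈ R → InL (V.P a) → InL (V.P b) → Commute a b := by
    intro a b ha hb hLa hLb
    obtain ⟨o1, o2⟩ := hperpA a ha (hLd a ha hLa)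
    exact (V.comm a ha b hb).2 (orth_InL o1 o2 hLb)
  have lt : InL (V.P t) := Or.inr (Or.inl hPt)
  have lu : InL (V.P u) := Or.inr (Or.inr (Or.inl hPu))
  have lv : InL (V.P v) := Or.inr (Or.inr (Or.inr hPv))
  have ctu := hcm htR huR lt lu
  have hprod : t * u * v = z := by
    have h0 : V.P (t * u * v) = 0 := by
      rw [V.mul _ (mul_mem htR huR) _ hvR, V.mul t htR u huR, hPt, hPu, hPv, line_facts.2.2.2.2.2.1,
        vadd_self]
    refine ((V.zero _ (mul_mem (mul_mem htR huR) hvR)).1 h0).resolve_left fun e => ?_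
    have hv' : v = t * u := by
      rw [eq_inv_of_mul_eq_one_right e, mul_inv_rev, inv_eq_of_mul_eq_one_right (hLsq t htR lt),
        inv_eq_of_mul_eq_one_right (hLsq u huR lu), ctu.eq]
    obtain ⟨x, hx, hxd⟩ := hdv
    have hy : (a0 * (s * a0 * s⁻¹)) * d * (a0 * (s * a0 * s⁻¹))⁻¹ = d * (t * u * z) := by
      rw [show (a0 * (s * a0 * s⁻¹)) * d * (a0 * (s * a0 * s⁻¹))⁻¹ =
          a0 * ((s * a0 * s⁻¹) * d * (s * a0 * s⁻¹)⁻¹) * a0⁻¹ by group, hdu, ← conj_mul, hF0,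
        (V.conj_cases ha0 huR).2 (hPu ▸ hva2)]
      simp only [mul_assoc]
    have hxR := inv_mem hx
    refine hnz _ (mul_mem hxR (mul_mem ha0 (hsn a0 ha0))) ?_
    calc x⁻¹ * (a0 * (s * a0 * s⁻¹)) * d * (x⁻¹ * (a0 * (s * a0 * s⁻¹)))⁻¹
        = x⁻¹ * ((a0 * (s * a0 * s⁻¹)) * d * (a0 * (s * a0 * s⁻¹))⁻¹) * x := by group
      _ = x⁻¹ * (x * d * x⁻¹ * z) * x := by rw [hy, hxd, hv']; group
      _ = d * (x⁻¹ * (z * x)) := by group
      _ = d * z := by rw [← (V.comm_z hx).eq, inv_mul_cancel_left]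
  have hne : ∀ {a b : X}, V.P a ≠ V.P b → a ≠ b := fun h e => h (e ▸ rfl)
  have hne3 : e1 ≠ om e1 ∧ om e1 ≠ om (om e1) ∧ e1 ≠ om (om e1) := by decide +kernel
  refine ⟨u, v, ?_, trivial⟩
  exact {
    idx := hidx
    d_sq := hd
    d_out := hdG
    z_mem := (V.R_le V.z_mem).1
    z_order := orderOf_eq_prime (p := 2) (by rw [pow_two, V.z_sq]) V.z_ne
    d_z := hdz
    t_mem := hGm t htR lt
    u_mem := hGm u huR lu
    v_mem := hGm v hvR lv
    t_sq := hLsq t htR lt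
    tu := ⟨hne (by rw [hPt, hPu]; exact hne3.1), ctu⟩
    uv := ⟨hne (by rw [hPu, hPv]; exact hne3.2.1), hcm huR hvR lu lv⟩
    tv := ⟨hne (by rw [hPt, hPv]; exact hne3.2.2), hcm htR hvR lt lv⟩
    prod := hprod
    not_conj := hnc
    cent_t := hct
    swap := ⟨a0, (V.R_le ha0).1, ha0t, hF0⟩
    noswap := hns
    Q := R
    Q_le := V.R_le
    Q_normal := fun g hg => by
      have hg' := Subgroup.mem_centralizer_singleton_iff.1 hg
      refine Subgroup.mem_normalizer_iff.2 fun x => ⟨fun hx => V.normal g hg' x hx, fun hx => ?_⟩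
      have h := V.normal g⁻¹ (Commute.inv_left hg') _ hx
      simpa [mul_assoc] using h
    Q_gen := fun x hx => by
      by_cases h : orth (V.P x) e1
      · exact ⟨x, hx, 1, one_mem _, (hcomt x hx).2 h, Commute.one_left u, (mul_one x).symm⟩
      by_cases h' : orth (V.P x) (om e1)
      · exact ⟨1, one_mem _, x, hx, Commute.one_left t, (V.comm x hx u huR).2 (hPu ▸ h'),
          (one_mul x).symm⟩
      · refine ⟨a0, ha0, a0⁻¹ * x, mul_mem (inv_mem ha0) hx, ha0t,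
          (V.comm _ (mul_mem (inv_mem ha0) hx) u huR).2 ?_, (mul_inv_cancel_left a0 x).symm⟩
        rw [V.mul _ (inv_mem ha0) x hx, V.P_inv ha0, hPu, orth_vadd]
        exact iff_of_false hva2 h'
    Q_comm := fun a ha b hb => by
      by_cases h : orth (V.P a) (V.P b)
      · exact Or.inl (by rw [(V.conj_cases ha hb).1 h, mul_inv_cancel])
      · exact Or.inr (by rw [(V.conj_cases ha hb).2 h, (V.comm_z hb).eq, mul_inv_cancel_right])
    s := s
    s_mem := ⟨hs ▸ G₀.mul_mem (G₀.inv_mem (V.R_le hq).1) V.σ_mem.1,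
      Subgroup.mem_centralizer_singleton_iff.2 hsz.eq⟩
    s_d := hsd
    s_t := hu
    s_u := hv
    s_v := hsv
    Q_cc := fun x hx h => by
      have hL : InL (V.P x) := by
        by_contra hn
        obtain ⟨w, hw1, hw2, hw3⟩ := dual_two line_facts.2.1 line_facts.2.2.1 line_facts.2.2.2.1
          (fun e => hn (Or.inl e)) (fun e => hn (Or.inr (Or.inl e)))
          (fun e => hn (Or.inr (Or.inr (Or.inl e))))
          (fun e => hn (Or.inr (Or.inr (Or.inr (e.trans line_facts.2.2.2.2.2.1)))))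
        obtain ⟨a, ha, rfl⟩ := V.surj w
        exact hw3 ((V.comm a ha x hx).1 (h a ha (hCd a ha hw1 hw2)).symm)
      have m : ∀ w ∈ ({t, u, v} : Set X), w ∈ Subgroup.closure ({t, u, v} : Set X) := fun w hw =>
        Subgroup.subset_closure hw
      have mz : z ∈ Subgroup.closure ({t, u, v} : Set X) :=
        hprod ▸ mul_mem (mul_mem (m t (by simp)) (m u (by simp))) (m v (by simp))
      rcases hL with e | e | e | e
      · rcases (V.zero x hx).1 e with r | r
        · exact r ▸ one_mem _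
        · exact r ▸ mz
      all_goals
        obtain ⟨w, hw, hwR, hwP⟩ : ∃ w ∈ ({t, u, v} : Set X), w ∈ R ∧ V.P w = V.P x := by
          first
            | exact ⟨t, by simp, htR, hPt.trans e.symm⟩
            | exact ⟨u, by simp, huR, hPu.trans e.symm⟩
            | exact ⟨v, by simp, hvR, hPv.trans e.symm⟩
        rcases V.cases_of_P hx hwR hwP.symm with r | r
        · exact r ▸ m w hw
        · exact r ▸ mul_mem (m w hw) mz
    u_Q := huR
    v_Q := hvR
    t_Q := htR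
    Q_d := fun w hw => by
      rcases hw with rfl | rfl | rfl
      · exact ⟨a0, ha0, hF0⟩
      · exact ⟨_, hsn a0 ha0, hdu⟩
      · exact hdv
    t_z := by
      obtain ⟨w, hw⟩ := orth_nondeg line_facts.2.1
      obtain ⟨x, hx, rfl⟩ := V.surj w
      exact ⟨x, hx, (V.conj_cases hx htR).2 (hPt ▸ hw)⟩ }

end core

end CfsgLib.AutLf48
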