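import Cfsg.Agent.Fi22Out.Main
import Cfsg.Agent.CosetEnum.Fi22.Simple
import Cfsg.Prelude.Def_CaseTheorems
import Cfsg.Prelude.Def_Local
import Cfsg.Prelude.Def_KGroupFacts

/-!
The outer involution: an element outside the subgroup of index 2 that centralises the double cover
of Fi22 inside the centraliser of a transposition.
-/

set_option autoImplicit false
set_option linter.style.haveILetI false
set_option linter.unusedVariables false

namespace CfsgLib.AutLf48

open Cfsg
open scoped commutatorElement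

theorem noncomm_fi22 : ∃ a b : Spor.Fi22, a * b ≠ b * a := by
  haveI := CfsgLib.CosetEnum.Fi22.simple
  by_contra hcon
  push Not at hcon
  let _ : CommGroup Spor.Fi22 := { (inferInstance : Group Spor.Fi22) with mul_comm := hcon }
  have hp := IsSimpleGroup.prime_card (α := Spor.Fi22)
  rw [CfsgLib.CosetEnum.Fi22.card_fi22] at hp
  exact absurd (hp.eq_one_or_self_of_dvd 2 (by norm_num)) (by norm_num)

theorem conj_injective_fi22 : Function.Injective (MulAut.conj : Spor.Fi22 →* MulAut Spor.Fi22) := by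
  haveI := CfsgLib.CosetEnum.Fi22.simple
  rw [← MonoidHom.ker_eq_bot_iff]
  refine (IsSimpleGroup.eq_bot_or_eq_top_of_normal _
    (inferInstance : (MulAut.conj : Spor.Fi22 →* MulAut Spor.Fi22).ker.Normal)).resolve_right fun h => ?_
  obtain ⟨a, b, hab⟩ := noncomm_fi22
  have ha : a ∈ (MulAut.conj : Spor.Fi22 →* MulAut Spor.Fi22).ker := h ▸ Subgroup.mem_top a
  have := congrArg (fun φ : MulAut Spor.Fi22 => φ b) (MonoidHom.mem_ker.1 ha)
  simp only [MulAut.conj_apply, MulAut.one_apply] at this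
  exact hab (mul_inv_eq_iff_eq_mul.1 this)

/-- A perfect subgroup lies in every subgroup of index two. -/
theorem perfect_le {H : Type*} [Group H] {P M : Subgroup H} (hM : M.index = 2)
    (hP : Group.IsPerfect P) : P ≤ M := by
  haveI := Subgroup.normal_of_index_eq_two hM
  have h : P ≤ ⁅P, P⁆ := by
    intro x hx
    have : (⟨x, hx⟩ : P) ∈ commutator P := (Group.isPerfect_def.1 hP).symm ▸ Subgroup.mem_top _
    have hm := Subgroup.mem_map_of_mem P.subtype this
    rwa [Subgroup.map_subtype_commutator] at hm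
  refine h.trans (Subgroup.commutator_le.2 fun a _ b _ => ?_)
  rw [← QuotientGroup.eq_one_iff]
  have hc : Nat.card (H ⧸ M) = 2 := hM
  haveI : Fact (Nat.Prime 2) := ⟨Nat.prime_two⟩
  haveI : IsCyclic (H ⧸ M) := isCyclic_of_prime_card hc
  let _ : CommGroup (H ⧸ M) := IsCyclic.commGroup
  rw [commutatorElement_def]
  show (a : H ⧸ M) * b * (a : H ⧸ M)⁻¹ * (b : H ⧸ M)⁻¹ = 1
  rw [mul_comm (a : H ⧸ M) b, mul_inv_cancel_right, mul_inv_cancel]

/-- The statement consumed by the assembly. -/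
theorem exists_outer {X : Type*} [Group X] [Finite X] (G₀ : Subgroup X) (hidx : G₀.index = 2)
    (t : ↥G₀) (ht : orderOf t = 2)
    (K : Subgroup ↥(Subgroup.centralizer ({t} : Set ↥G₀))) [K.Normal]
    (hK : IsQuasisimple ↥K) (hKidx : K.index = 2)
    (htK : (⟨t, Subgroup.mem_centralizer_singleton_iff.2 rfl⟩ :
      ↥(Subgroup.centralizer ({t} : Set ↥G₀))) ∈ K)
    [((Subgroup.zpowers t).subgroupOf (Subgroup.centralizer ({t} : Set ↥G₀))).Normal]
    (e : ↥(Subgroup.centralizer ({t} : Set ↥G₀)) ⧸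
      (Subgroup.zpowers t).subgroupOf (Subgroup.centralizer ({t} : Set ↥G₀)) ≃* MulAut Spor.Fi22)
    (hKstar : K = generalizedFittingSubgroup ↥(Subgroup.centralizer ({t} : Set ↥G₀)))
    (g : X) (hg : g ∉ G₀) (hgt : Commute g (t : X)) :
    ∃ (d : X) (KX : Subgroup X), KX = (K.map (Subgroup.subtype _)).map G₀.subtype ∧ d ∉ G₀ ∧
      Commute d (t : X) ∧ (d * d = 1 ∨ d * d = (t : X)) ∧ (∀ k ∈ KX, Commute d k) ∧
      (∀ x, Commute x (t : X) → (∀ k ∈ KX, Commute x k) →
        x = 1 ∨ x = (t : X) ∨ x = d ∨ x = d * (t : X)) ∧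
      (∀ x, Commute x (t : X) → ∀ k ∈ KX, x * k * x⁻¹ ∈ KX) ∧
      (∀ a ∈ G₀, ∀ b ∈ G₀, Commute a (t : X) → Commute b (t : X) →
        a * b * a⁻¹ * b⁻¹ ∈ KX ∧ (a ∉ KX → b ∉ KX → a * b ∈ KX)) ∧
      ∃ f : ↥KX →* Spor.Fi22, Function.Surjective f ∧
        ∀ k, f k = 1 ↔ (k : X) = 1 ∨ (k : X) = (t : X) := by
  classical
  haveI := CfsgLib.CosetEnum.Fi22.simple
  haveI := CfsgLib.CosetEnum.Fi22.finite_fi22
  haveI := Subgroup.normal_of_index_eq_two hidx
  set ι : ↥(Subgroup.centralizer ({t} : Set ↥G₀)) →* X := G₀.subtype.comp (Subgroup.centralizer ({t} : Set ↥G₀)).subtype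
  have hι : Function.Injective ι := Subtype.val_injective.comp Subtype.val_injective
  set KX := (K.map (Subgroup.subtype _)).map G₀.subtype with hKX
  have hKX' : KX = K.map ι := Subgroup.map_map _ _ _
  have memKX : ∀ c : ↥(Subgroup.centralizer ({t} : Set ↥G₀)), ι c ∈ KX ↔ c ∈ K := fun c => by
    rw [hKX', Subgroup.mem_map_iff_mem hι]
  -- lifting elements to the centraliser
  have lift : ∀ x ∈ G₀, Commute x (t : X) → ∃ c : ↥(Subgroup.centralizer ({t} : Set ↥G₀)), ι c = x := fun x hx hxt =>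
    ⟨⟨⟨x, hx⟩, Subgroup.mem_centralizer_singleton_iff.2 (Subtype.ext hxt.eq)⟩, rfl⟩
  have commι : ∀ c : ↥(Subgroup.centralizer ({t} : Set ↥G₀)), Commute (ι c) (t : X) := fun c =>
    congrArg Subtype.val (Subgroup.mem_centralizer_singleton_iff.1 c.2)
  have tsq : (t : X) * t = 1 := by
    rw [← pow_two, ← ht, ← SubmonoidClass.coe_pow, pow_orderOf_eq_one]; rfl
  have memZ : ∀ c : ↥(Subgroup.centralizer ({t} : Set ↥G₀)), c ∈ ((Subgroup.zpowers t).subgroupOf (Subgroup.centralizer ({t} : Set ↥G₀))) ↔ ι c = 1 ∨ ι c = (t : X) := by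
    intro c
    rw [Subgroup.mem_subgroupOf, mem_zpowers_iff_mem_range_orderOf, ht]
    constructor
    · intro h
      obtain ⟨i, hi, hic⟩ := Finset.mem_image.1 h
      rw [Finset.mem_range] at hi
      interval_cases i
      · refine Or.inl ?_
        show ((c : ↥G₀) : X) = 1
        rw [← hic]; simp
      · refine Or.inr ?_
        show ((c : ↥G₀) : X) = (t : X)
        rw [← hic]; simp
    · rintro (h | h) <;> refine Finset.mem_image.2 ?_
      · exact ⟨0, by simp, by rw [pow_zero]; exact (Subtype.ext h : (c : ↥G₀) = 1).symm⟩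
      · exact ⟨1, by simp, by rw [pow_one]; exact (Subtype.ext h : (c : ↥G₀) = t).symm⟩
  set m : ↥(Subgroup.centralizer ({t} : Set ↥G₀)) →* MulAut Spor.Fi22 := e.toMonoidHom.comp (QuotientGroup.mk' ((Subgroup.zpowers t).subgroupOf (Subgroup.centralizer ({t} : Set ↥G₀))))
  have hm : Function.Surjective m := e.surjective.comp (QuotientGroup.mk'_surjective _)
  have hmk : ∀ c, m c = 1 ↔ c ∈ ((Subgroup.zpowers t).subgroupOf (Subgroup.centralizer ({t} : Set ↥G₀))) := fun c => by simp [m]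
  -- the image of `K` is the group of inner automorphisms
  set I := (MulAut.conj : Spor.Fi22 →* MulAut Spor.Fi22).range
  have hI : I.index = 2 := CfsgLib.Fi22Out.card_out
  have hKle : K ≤ I.comap m := perfect_le (by rw [Subgroup.index_comap_of_surjective _ hm, hI]) hK.1
  have hKI : K = I.comap m := by
    refine Subgroup.eq_of_le_of_card_ge hKle ?_
    have h1 := Subgroup.card_mul_index K
    have h2 := Subgroup.card_mul_index (I.comap m)
    rw [hKidx] at h1
    rw [Subgroup.index_comap_of_surjective _ hm, hI] at h2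
    omega
  have hcomm : ∀ a b : ↥(Subgroup.centralizer ({t} : Set ↥G₀)), a * b * a⁻¹ * b⁻¹ ∈ K := fun a b => by
    have hc : Nat.card (↥(Subgroup.centralizer ({t} : Set ↥G₀)) ⧸ K) = 2 := hKidx
    haveI : Fact (Nat.Prime 2) := ⟨Nat.prime_two⟩
    haveI : IsCyclic (↥(Subgroup.centralizer ({t} : Set ↥G₀)) ⧸ K) := isCyclic_of_prime_card hc
    let _ : CommGroup (↥(Subgroup.centralizer ({t} : Set ↥G₀)) ⧸ K) := IsCyclic.commGroup
    rw [← QuotientGroup.eq_one_iff]
    show (a : ↥(Subgroup.centralizer ({t} : Set ↥G₀)) ⧸ K) * b * (a : ↥(Subgroup.centralizer ({t} : Set ↥G₀)) ⧸ K)⁻¹ * (b : ↥(Subgroup.centralizer ({t} : Set ↥G₀)) ⧸ K)⁻¹ = 1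
    rw [mul_comm (a : ↥(Subgroup.centralizer ({t} : Set ↥G₀)) ⧸ K) b, mul_inv_cancel_right, mul_inv_cancel]
  -- the map onto Fi22
  let j := MonoidHom.ofInjective conj_injective_fi22
  set f₀ : K →* Spor.Fi22 := j.symm.toMonoidHom.comp
    ((m.comp K.subtype).codRestrict I fun k => hKI.le k.2)
  have hf₀ : ∀ k : K, MulAut.conj (f₀ k) = m k := fun k =>
    congrArg Subtype.val (j.apply_symm_apply ⟨m k, hKI.le k.2⟩)
  have hf₀s : Function.Surjective f₀ := fun y => by
    obtain ⟨c, hc⟩ := hm (MulAut.conj y)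
    have hcK : c ∈ K := hKI.ge ⟨y, hc.symm⟩
    exact ⟨⟨c, hcK⟩, conj_injective_fi22 ((hf₀ _).trans hc)⟩
  have hf₀k : ∀ k : K, f₀ k = 1 ↔ (k : ↥(Subgroup.centralizer ({t} : Set ↥G₀))) ∈ ((Subgroup.zpowers t).subgroupOf (Subgroup.centralizer ({t} : Set ↥G₀))) := fun k => by
    rw [← hmk, ← hf₀ k, ← conj_injective_fi22.eq_iff, map_one]
  -- the action of the centraliser of `t` in `X`
  have conjC : ∀ x : X, Commute x (t : X) → ∀ c : ↥(Subgroup.centralizer ({t} : Set ↥G₀)), ∃ c' : ↥(Subgroup.centralizer ({t} : Set ↥G₀)), ι c' = x * ι c * x⁻¹ := fun x hx c =>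
    lift _ (Subgroup.Normal.conj_mem inferInstance _ c.1.2 x)
      ((hx.mul_left (commι c)).mul_left hx.inv_left)
  have conjK : ∀ x : X, Commute x (t : X) → ∀ k ∈ KX, x * k * x⁻¹ ∈ KX := by
    intro x hx
    have hle : K ≤ (KX.comap ((MulAut.conj x).toMonoidHom.comp ι)) ⊓ ⊤ := by
      rw [inf_top_eq]
      -- `K` is generated by commutators
      have hp : K ≤ ⁅K, K⁆ := by
        intro y hy
        have : (⟨y, hy⟩ : K) ∈ commutator K := (Group.isPerfect_def.1 hK.1).symm ▸ Subgroup.mem_top _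
        have hm' := Subgroup.mem_map_of_mem K.subtype this
        rwa [Subgroup.map_subtype_commutator] at hm'
      refine hp.trans (Subgroup.commutator_le.2 fun a _ b _ => ?_)
      obtain ⟨a', ha'⟩ := conjC x hx a
      obtain ⟨b', hb'⟩ := conjC x hx b
      show x * ι ⁅a, b⁆ * x⁻¹ ∈ KX
      have : x * ι ⁅a, b⁆ * x⁻¹ = ι (a' * b' * a'⁻¹ * b'⁻¹) := by
        rw [map_mul, map_mul, map_mul, map_inv, map_inv, ha', hb', commutatorElement_def, map_mul,
          map_mul, map_mul, map_inv, map_inv]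
        group
      rw [this, memKX]
      exact hcomm a' b'
    intro k hk
    rw [hKX'] at hk
    obtain ⟨c, hc, rfl⟩ := hk
    exact (hle hc).1
  -- the map on `KX`
  let κ : K ≃* KX := (K.equivMapOfInjective ι hι).trans (MulEquiv.subgroupCongr hKX'.symm)
  have hκ : ∀ k : K, (κ k : X) = ι k := fun k => rfl
  set f : KX →* Spor.Fi22 := f₀.comp κ.symm.toMonoidHom
  have hfs : Function.Surjective f := hf₀s.comp κ.symm.surjective
  have hfk : ∀ k, f k = 1 ↔ (k : X) = 1 ∨ (k : X) = (t : X) := fun k => by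
    obtain ⟨k, rfl⟩ := κ.surjective k
    show f₀ (κ.symm (κ k)) = 1 ↔ _
    rw [κ.symm_apply_apply, hf₀k, memZ, hκ]
  -- the automorphism induced by `g`
  let γ : KX →* KX :=
    { toFun := fun k => ⟨g * k * g⁻¹, conjK g hgt k k.2⟩
      map_one' := Subtype.ext (by simp)
      map_mul' := fun a b => Subtype.ext (by simp [mul_assoc]) }
  have hker : f.ker ≤ (f.comp γ).ker := by
    intro k hk
    rw [MonoidHom.mem_ker] at hk ⊢
    show f (γ k) = 1
    rw [hfk] at hk ⊢
    rcases hk with h | h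
    · left; show g * (k : X) * g⁻¹ = 1; rw [h]; simp
    · right; show g * (k : X) * g⁻¹ = t; rw [h, hgt.eq, mul_inv_cancel_right]
  set b : Spor.Fi22 →* Spor.Fi22 := f.liftOfSurjective hfs ⟨f.comp γ, hker⟩
  have hb : ∀ k, b (f k) = f (γ k) := fun k =>
    MonoidHom.liftOfRightInverse_comp_apply f (Function.surjInv hfs) _ ⟨f.comp γ, hker⟩ k
  have hbbij : Function.Bijective b := by
    refine Finite.injective_iff_bijective.1 ((injective_iff_map_eq_one b).2 fun y hy => ?_)
    obtain ⟨k, rfl⟩ := hfs y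
    rw [hb, hfk] at hy
    rw [hfk]
    rcases hy with h | h
    · left
      exact conj_eq_one_iff.1 h
    · right
      have : g * (k : X) * g⁻¹ = g * t * g⁻¹ := by
        rw [hgt.eq, mul_inv_cancel_right]; exact h
      exact mul_left_cancel (mul_right_cancel this)
  obtain ⟨c, hc⟩ := hm (MulEquiv.ofBijective b hbbij)
  set d := (ι c)⁻¹ * g
  have hdt : Commute d (t : X) := (commι c).inv_left.mul_left hgt
  have hdG : d ∉ G₀ := fun h => hg (by
    have : ι c * d ∈ G₀ := mul_mem c.1.2 h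
    simpa [d] using this)
  -- `d` centralises modulo `t`
  have hmod : ∀ k : KX, ∀ hk : d * k * d⁻¹ ∈ KX, f ⟨_, hk⟩ = f k := by
    intro k hk
    obtain ⟨k₁, hk₁⟩ := κ.surjective ⟨_, hk⟩
    obtain ⟨k₂, hk₂⟩ := κ.surjective (γ k)
    have hrel : (k₂ : ↥(Subgroup.centralizer ({t} : Set ↥G₀))) = c * k₁ * c⁻¹ := hι (by
      rw [map_mul, map_mul, map_inv, ← hκ, ← hκ, hk₁, hk₂]
      show g * (k : X) * g⁻¹ = ι c * (d * k * d⁻¹) * (ι c)⁻¹
      simp only [d]
      group)
    have h1 : b (f k) = f₀ k₂ := by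
      rw [hb, ← hk₂]
      show f₀ (κ.symm (κ k₂)) = _
      rw [κ.symm_apply_apply]
    have h2 : f ⟨_, hk⟩ = f₀ k₁ := by
      rw [← hk₁]
      show f₀ (κ.symm (κ k₁)) = _
      rw [κ.symm_apply_apply]
    have h3 : b (f₀ k₁) = f₀ k₂ := by
      apply conj_injective_fi22
      rw [hf₀, hrel, map_mul, map_mul, map_inv, hc, ← hf₀]
      ext y
      simp [MulEquiv.ofBijective]
      rfl
    exact hbbij.1 ((congrArg b h2).trans (h3.trans h1.symm))
  have hdK : ∀ k ∈ KX, Commute d k := by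
    let δ : KX → X := fun k => d * k * d⁻¹ * (k : X)⁻¹
    have hδ : ∀ k, δ k = 1 ∨ δ k = t := fun k => by
      have hk := conjK d hdt k k.2
      have := (hfk (⟨_, hk⟩ * k⁻¹)).1 (by rw [map_mul, map_inv, hmod k hk, mul_inv_cancel])
      exact this
    have hδc : ∀ (k : KX) (l : KX), Commute (δ k) (l : X) := fun k l => by
      rcases hδ k with h | h <;> rw [h]
      · exact Commute.one_left _
      · obtain ⟨c', hc'⟩ := κ.surjective l
        rw [← hc', hκ]
        exact (commι _).symm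
    let Δ : KX →* X :=
      { toFun := δ
        map_one' := by simp [δ]
        map_mul' := fun a b => by
          show d * ((a : X) * b) * d⁻¹ * ((a : X) * b)⁻¹ = δ a * δ b
          calc d * ((a : X) * b) * d⁻¹ * ((a : X) * b)⁻¹ =
              (d * a * d⁻¹) * δ b * (a : X)⁻¹ := by simp only [δ]; group
            _ = δ a * (a : X) * δ b * (a : X)⁻¹ := by simp only [δ]; group
            _ = δ a * δ b := by
              rw [mul_assoc (δ a) (a : X), ← (hδc b a).eq, ← mul_assoc, mul_inv_cancel_right] }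
    have hcl : ∀ a b, Δ a * Δ b = Δ b * Δ a := fun a b => by
      rcases hδ a with h | h <;> rcases hδ b with h' | h' <;>
        simp only [show Δ a = δ a from rfl, show Δ b = δ b from rfl, h, h', mul_one, one_mul]
    have hp : Group.IsPerfect KX := by
      rw [Group.isPerfect_def, eq_top_iff]
      intro k _
      obtain ⟨k, rfl⟩ := κ.surjective k
      have := Subgroup.mem_map_of_mem κ.toMonoidHom
        ((Group.isPerfect_def.1 hK.1).symm ▸ Subgroup.mem_top k : k ∈ commutator K)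
      rw [commutator_def, Subgroup.map_commutator] at this
      exact Subgroup.commutator_mono le_top le_top this
    intro k hk
    have hker : commutator KX ≤ Δ.ker := by
      rw [commutator_def, Subgroup.commutator_le]
      intro a _ b _
      rw [MonoidHom.mem_ker, map_commutatorElement, commutatorElement_eq_one_iff_mul_comm]
      exact hcl a b
    have := MonoidHom.mem_ker.1 (hker ((Group.isPerfect_def.1 hp).symm ▸
      Subgroup.mem_top (⟨k, hk⟩ : KX)))
    exact mul_inv_eq_iff_eq_mul.1 (mul_inv_eq_one.1 this)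
  have centG : ∀ x ∈ G₀, Commute x (t : X) → (∀ k ∈ KX, Commute x k) → x = 1 ∨ x = (t : X) := by
    intro x hx hxt hxk
    obtain ⟨c', rfl⟩ := lift x hx hxt
    refine (memZ c').1 ((hmk c').1 (MulEquiv.ext fun y => ?_))
    obtain ⟨k, rfl⟩ := hf₀s y
    show (m c') (f₀ k) = f₀ k
    have hck : c' * (k : ↥(Subgroup.centralizer ({t} : Set ↥G₀))) * c'⁻¹ = k := hι (by
      rw [map_mul, map_mul, map_inv, (hxk (ι k) ((memKX _).2 k.2)).eq, mul_inv_cancel_right])
    have h := congrArg m hck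
    rw [map_mul, map_mul, map_inv, ← hf₀] at h
    apply conj_injective_fi22
    rw [← h]
    ext y
    simp
  refine ⟨d, KX, rfl, hdG, hdt, ?_, hdK, ?_, conjK, ?_, f, hfs, hfk⟩
  · exact centG _ ((Subgroup.mul_mem_iff_of_index_two hidx).2 (by simp))
      (hdt.mul_left hdt) fun k hk => (hdK k hk).mul_left (hdK k hk)
  · intro x hxt hxk
    by_cases hx : x ∈ G₀
    · rcases centG x hx hxt hxk with h | h
      · exact Or.inl h
      · exact Or.inr (Or.inl h)
    · right; right
      have hy : d⁻¹ * x ∈ G₀ := (Subgroup.mul_mem_iff_of_index_two hidx).2 (by simp [hdG, hx])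
      rcases centG _ hy (hdt.inv_left.mul_left hxt) fun k hk => (hdK k hk).inv_left.mul_left (hxk k hk)
        with h | h
      · exact Or.inl (inv_mul_eq_one.1 h).symm
      · exact Or.inr (inv_mul_eq_iff_eq_mul.1 h)
  · intro a ha b' hb' hat hbt
    obtain ⟨a, rfl⟩ := lift a ha hat
    obtain ⟨b', rfl⟩ := lift b' hb' hbt
    rw [← map_inv, ← map_inv, ← map_mul, ← map_mul, ← map_mul, memKX, memKX, memKX, memKX]
    exact ⟨hcomm a b', fun h1 h2 => (Subgroup.mul_mem_iff_of_index_two hKidx).2 (by simp [h1, h2])⟩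

end CfsgLib.AutLf48
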