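import Cfsg.Agent.AutLf48.Relator.Walk

/-!
The long relator of the presented Fi24 holds in any group with letters satisfying the others, the
subgroup of all letters but the last being that of Fi24 and the walk word commuting with the last.
-/

set_option autoImplicit false
set_option maxRecDepth 8000

namespace CfsgLib.AutLf48

open CfsgLib.CosetEnum CfsgLib.CosetEnum.Fi24

namespace Relator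

theorem commute_l_Hs {a : Cfsg.Spor.Fi24} (ha : a ∈ Hs) : a * g12 10 = g12 10 * a := by
  obtain ⟨u, rfl | rfl⟩ := mem_Hs_cases ha
  · exact psi_commute_l u
  · rw [← mul_assoc, ← psi_commute_l]

/-- in the presented Fi24 the walk word commutes with `k` -/
theorem wl_commute_k : Commute (gword g12 wlW) (g12 11) := by
  have hw : gword g12 wlW ∈ Hs := gword_mem_Hs (show ∀ x ∈ wlW, x < 11 by decide)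
  have hb := commute_l_Hs (k_wl_k checksOK)
  rw [gword_cons, wapp, wone] at hb
  have ha := commute_l_Hs hw
  have hbr : g12 10 * (g12 11 * g12 10) = g12 11 * (g12 10 * g12 11) :=
    Fi24.braid_letters (by decide +kernel)
  set a := gword g12 wlW
  set k := g12 11
  set l := g12 10
  have hk2 : k * k = 1 := g12_sq 11
  have hl2 : l * l = 1 := g12_sq 10
  have hc : Commute a (k * (l * k)) := by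
    show a * (k * (l * k)) = k * (l * k) * a
    have e := congrArg (fun y => k * y * k) hb
    simp only [mul_assoc] at e
    rw [← mul_assoc k k, hk2, one_mul] at e
    simpa [mul_assoc, hk2] using e
  have hl : Commute a l := ha
  have hk : k = l * (k * (l * k)) * l := by
    rw [← hbr, ← mul_assoc l l, hl2, one_mul, mul_assoc, hl2, mul_one]
  rw [hk]
  exact (hl.mul_right hc).mul_right hl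

variable {P : Type*} [Group P] {v : ℕ → P} {π : P →* Cfsg.Spor.Fi24} (hL : Lift v π)
include hL

theorem Lift.halves_eq : gword v [11, 0, 1, 2, 3, 8, 7, 3, 9, 6, 5, 4, 3, 10, 11, 0, 1, 2, 3, 8, 7, 3, 9, 6, 5, 4, 3, 10, 11, 0, 1, 2, 3, 8, 7, 3, 9, 6, 5, 4, 3, 10, 11, 0, 1, 2, 3, 8, 7, 3, 9, 6, 5, 4, 3, 10, 11, 0, 1, 2, 3, 8, 7, 3, 9, 6, 5, 4, 3, 10, 11, 0, 1, 2, 3, 8, 7, 3, 9, 6, 5, 4, 3, 10, 11] =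
    gword v [10, 3, 4, 5, 6, 9, 3, 7, 8, 3, 2, 1, 0, 11, 10, 3, 4, 5, 6, 9, 3, 7, 8, 3, 2, 1, 0, 11, 10, 3, 4, 5, 6, 9, 3, 7, 8, 3, 2, 1, 0, 11, 10, 3, 4, 5, 6, 9, 3, 7, 8, 3, 2, 1, 0, 11, 10, 3, 4, 5, 6, 9, 3, 7, 8, 3, 2, 1, 0, 11, 10, 3, 4, 5, 6, 9, 3, 7, 8, 3, 2, 1, 0, 11, 10, 3, 4, 5, 6, 9, 3, 7, 8, 3, 2, 1, 0, 11, 10, 3, 4, 5, 6, 9, 3, 7, 8, 3, 2, 1, 0, 11, 10, 3, 4, 5, 6, 9, 3, 7, 8, 3, 2, 1, 0, 11, 10, 3, 4, 5, 6, 9, 3, 7, 8, 3, 2, 1, 0, 11, 10, 3, 4, 5, 6, 9, 3, 7, 8, 3, 2, 1, 0] := by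
  have h1 : SameV v ([9, 3, 7, 5, 2, 3, 4, 1, 2, 3, 7, 8, 2, 3, 4, 1, 2, 3, 7, 6, 5, 4, 3, 2, 1, 0, 10] ++ [11]) ([10, 3, 4, 5, 6, 9, 3, 7, 8, 3, 2, 1, 0, 3, 7, 1, 2, 3, 4, 5, 6, 9, 4, 3, 7, 8, 4, 5, 2, 3, 4, 1, 2, 3, 7, 1, 2, 3, 4, 5, 6, 4, 2, 3, 10, 3, 4, 2, 3, 7, 1, 2, 3, 4, 0, 1, 2, 3, 7, 8, 7, 3, 4, 2, 3, 7, 5, 4, 3, 2, 1, 0] ++ [11]) := by
    refine hL.of_word ?_
    rw [show ([9, 3, 7, 5, 2, 3, 4, 1, 2, 3, 7, 8, 2, 3, 4, 1, 2, 3, 7, 6, 5, 4, 3, 2, 1, 0, 10] ++ [11] : List ℕ).reverse ++ ([10, 3, 4, 5, 6, 9, 3, 7, 8, 3, 2, 1, 0, 3, 7, 1, 2, 3, 4, 5, 6, 9, 4, 3, 7, 8, 4, 5, 2, 3, 4, 1, 2, 3, 7, 1, 2, 3, 4, 5, 6, 4, 2, 3, 10, 3, 4, 2, 3, 7, 1, 2, 3, 4, 0, 1, 2, 3, 7, 8, 7, 3, 4, 2, 3, 7, 5, 4, 3, 2, 1, 0] ++ [11]) = 11 :: (wlW ++ [11]) by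
      decide +kernel, gword_cons, wapp, wone, hL.wl.eq, ← mul_assoc, hL.sq, one_mul]
    exact mem_Hv (show ∀ x ∈ wlW, x < 11 by decide)
  have h2 := ((vrightEnd hL).symm.trans h1).trans (vleftEnd hL)
  refine eq_of_inv_mul_eq_one (hL.inj _ h2 ?_)
  rw [map_mul, map_inv, hL.gword_proj, hL.gword_proj, Fi24.halves, inv_mul_cancel]

theorem Lift.long : gword v cW = 1 := by
  have e := hL.halves_eq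
  rw [show ([10, 3, 4, 5, 6, 9, 3, 7, 8, 3, 2, 1, 0, 11, 10, 3, 4, 5, 6, 9, 3, 7, 8, 3, 2, 1, 0, 11, 10, 3, 4, 5, 6, 9, 3, 7, 8, 3, 2, 1, 0, 11, 10, 3, 4, 5, 6, 9, 3, 7, 8, 3, 2, 1, 0, 11, 10, 3, 4, 5, 6, 9, 3, 7, 8, 3, 2, 1, 0, 11, 10, 3, 4, 5, 6, 9, 3, 7, 8, 3, 2, 1, 0, 11, 10, 3, 4, 5, 6, 9, 3, 7, 8, 3, 2, 1, 0, 11, 10, 3, 4, 5, 6, 9, 3, 7, 8, 3, 2, 1, 0, 11, 10, 3, 4, 5, 6, 9, 3, 7, 8, 3, 2, 1, 0, 11, 10, 3, 4, 5, 6, 9, 3, 7, 8, 3, 2, 1, 0, 11, 10, 3, 4, 5, 6, 9, 3, 7, 8, 3, 2, 1, 0] : List ℕ) = ([0, 1, 2, 3, 8, 7, 3, 9, 6, 5, 4, 3, 10, 11, 0, 1, 2, 3, 8, 7, 3, 9, 6, 5, 4, 3, 10, 11, 0, 1, 2, 3, 8, 7, 3, 9, 6, 5, 4, 3, 10, 11, 0, 1, 2, 3, 8, 7, 3, 9, 6, 5, 4, 3, 10, 11, 0, 1, 2, 3, 8, 7, 3, 9, 6, 5, 4, 3, 10, 11, 0, 1, 2, 3, 8, 7, 3, 9, 6, 5, 4, 3, 10,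 11, 0, 1, 2, 3, 8, 7, 3, 9, 6, 5, 4, 3, 10, 11, 0, 1, 2, 3, 8, 7, 3, 9, 6, 5, 4, 3, 10, 11, 0, 1, 2, 3, 8, 7, 3, 9, 6, 5, 4, 3, 10, 11, 0, 1, 2, 3, 8, 7, 3, 9, 6, 5, 4, 3, 10, 11, 0, 1, 2, 3, 8, 7, 3, 9, 6, 5, 4, 3, 10] : List ℕ).reverse from rfl, wrev hL.inv] at e
  have h0 : gword v (([0, 1, 2, 3, 8, 7, 3, 9, 6, 5, 4, 3, 10, 11, 0, 1, 2, 3, 8, 7, 3, 9, 6, 5, 4, 3, 10, 11, 0, 1, 2, 3, 8, 7, 3, 9, 6, 5, 4, 3, 10, 11, 0, 1, 2, 3, 8, 7, 3, 9, 6, 5, 4, 3, 10, 11, 0, 1, 2, 3, 8, 7, 3, 9, 6, 5, 4, 3, 10, 11, 0, 1, 2, 3, 8, 7, 3, 9, 6, 5, 4, 3, 10, 11, 0, 1, 2, 3, 8, 7, 3, 9, 6, 5, 4, 3, 10, 11, 0, 1, 2, 3, 8, 7, 3, 9, 6, 5, 4, 3, 10, 11, 0, 1, 2, 3, 8, 7, 3, 9, 6, 5, 4, 3, 10, 11, 0, 1, 2, 3, 8, 7, 3, 9, 6, 5, 4, 3, 10, 11, 0, 1, 2, 3, 8, 7, 3, 9, 6, 5, 4, 3, 10]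 : List ℕ) ++ [11, 0, 1, 2, 3, 8, 7, 3, 9, 6, 5, 4, 3, 10, 11, 0, 1, 2, 3, 8, 7, 3, 9, 6, 5, 4, 3, 10, 11, 0, 1, 2, 3, 8, 7, 3, 9, 6, 5, 4, 3, 10, 11, 0, 1, 2, 3, 8, 7, 3, 9, 6, 5, 4, 3, 10, 11, 0, 1, 2, 3, 8, 7, 3, 9, 6, 5, 4, 3, 10, 11, 0, 1, 2, 3, 8, 7, 3, 9, 6, 5, 4, 3, 10, 11]) = 1 := by
    rw [wapp, e, mul_inv_cancel]
  rw [show ([0, 1, 2, 3, 8, 7, 3, 9, 6, 5, 4, 3, 10, 11, 0, 1, 2, 3, 8, 7, 3, 9, 6, 5, 4, 3, 10, 11, 0, 1, 2, 3, 8, 7, 3, 9, 6, 5, 4, 3, 10, 11, 0, 1, 2, 3, 8, 7, 3, 9, 6, 5, 4, 3, 10, 11, 0, 1, 2, 3, 8, 7, 3, 9, 6, 5, 4, 3, 10, 11, 0, 1, 2, 3, 8, 7, 3, 9, 6, 5, 4, 3, 10, 11, 0, 1, 2, 3, 8, 7, 3, 9, 6, 5, 4, 3, 10, 11, 0, 1, 2, 3, 8, 7, 3, 9, 6, 5, 4, 3, 10, 11, 0, 1, 2, 3, 8, 7, 3, 9, 6, 5, 4, 3, 10, 11, 0, 1, 2, 3, 8, 7, 3, 9, 6, 5, 4,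 3, 10, 11, 0, 1, 2, 3, 8, 7, 3, 9, 6, 5, 4, 3, 10] : List ℕ) ++ [11, 0, 1, 2, 3, 8, 7, 3, 9, 6, 5, 4, 3, 10, 11, 0, 1, 2, 3, 8, 7, 3, 9, 6, 5, 4, 3, 10, 11, 0, 1, 2, 3, 8, 7, 3, 9, 6, 5, 4, 3, 10, 11, 0, 1, 2, 3, 8, 7, 3, 9, 6, 5, 4, 3, 10, 11, 0, 1, 2, 3, 8, 7, 3, 9, 6, 5, 4, 3, 10, 11, 0, 1, 2, 3, 8, 7, 3, 9, 6, 5, 4, 3, 10, 11] = ([11, 10, 3, 4, 5, 6, 9, 3, 7, 8, 3, 2, 1, 0, 11, 10, 3, 4, 5, 6, 9, 3, 7, 8, 3, 2, 1, 0, 11, 10, 3, 4, 5, 6, 9, 3, 7, 8, 3, 2, 1, 0, 11, 10, 3, 4, 5, 6, 9, 3, 7, 8, 3, 2, 1, 0, 11, 10, 3, 4, 5, 6, 9, 3, 7, 8, 3, 2, 1, 0, 11, 10, 3, 4, 5, 6, 9, 3, 7, 8, 3, 2, 1, 0, 11, 10, 3, 4, 5, 6, 9, 3, 7, 8, 3, 2, 1, 0, 11, 10, 3, 4, 5, 6, 9, 3, 7, 8, 3, 2, 1, 0, 11, 10, 3, 4, 5, 6, 9, 3, 7, 8, 3, 2, 1, 0, 11, 10, 3, 4, 5, 6, 9, 3, 7, 8, 3,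 2, 1, 0, 11, 10, 3, 4, 5, 6, 9, 3, 7, 8, 3, 2, 1, 0, 11, 10, 3, 4, 5, 6, 9, 3, 7, 8, 3, 2, 1, 0, 11, 10, 3, 4, 5, 6, 9, 3, 7, 8, 3, 2, 1, 0, 11, 10, 3, 4, 5, 6, 9, 3, 7, 8, 3, 2, 1, 0, 11, 10, 3, 4, 5, 6, 9, 3, 7, 8, 3, 2, 1, 0, 11, 10, 3, 4, 5, 6, 9, 3, 7, 8, 3, 2, 1, 0, 11, 10, 3, 4, 5, 6, 9, 3, 7, 8] ++ [3, 2, 1, 0]).reverse by decide +kernel,
    wrev hL.inv, inv_eq_one, wapp] at h0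
  rw [show cW = [3, 2, 1, 0] ++ [11, 10, 3, 4, 5, 6, 9, 3, 7, 8, 3, 2, 1, 0, 11, 10, 3, 4, 5, 6, 9, 3, 7, 8, 3, 2, 1, 0, 11, 10, 3, 4, 5, 6, 9, 3, 7, 8, 3, 2, 1, 0, 11, 10, 3, 4, 5, 6, 9, 3, 7, 8, 3, 2, 1, 0, 11, 10, 3, 4, 5, 6, 9, 3, 7, 8, 3, 2, 1, 0, 11, 10, 3, 4, 5, 6, 9, 3, 7, 8, 3, 2, 1, 0, 11, 10, 3, 4, 5, 6, 9, 3, 7, 8, 3, 2, 1, 0, 11, 10, 3, 4, 5, 6, 9, 3, 7, 8, 3, 2, 1, 0, 11, 10, 3, 4, 5, 6, 9, 3, 7, 8, 3, 2, 1, 0, 11, 10, 3, 4, 5, 6, 9, 3, 7, 8, 3, 2, 1, 0, 11, 10, 3, 4, 5, 6, 9, 3, 7, 8, 3, 2, 1, 0, 11, 10, 3, 4, 5, 6, 9, 3, 7, 8, 3, 2, 1, 0, 11, 10, 3, 4, 5, 6, 9, 3, 7, 8, 3, 2, 1, 0, 11, 10, 3, 4, 5, 6, 9, 3, 7, 8, 3, 2, 1, 0, 11, 10, 3, 4, 5, 6, 9, 3, 7, 8, 3, 2, 1, 0, 11, 10, 3, 4, 5, 6, 9, 3, 7, 8, 3, 2, 1, 0, 11, 10, 3, 4, 5, 6, 9, 3, 7, 8]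 by decide +kernel, wapp]
  exact mul_eq_one_comm.1 h0

end Relator

open Relator in
/-- The long relator holds in a group over the subgroup of all letters but the last. -/
theorem cW_rel {X : Type*} [Group X] (g : ℕ → X) (hinv : ∀ x, g x = (g x)⁻¹)
    (rho : Hs →* X) (hrho : ∀ x (hx : x < 11), rho ⟨g12 x, g12_mem_Hs hx⟩ = g x)
    (hrel : ∀ w ∈ relW, w ≠ cW → w ≠ cW.reverse → gword g w = 1)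
    (hwl : Commute (gword g wlW) (g 11)) : gword g cW = 1 := by
  let v : ℕ → Cfsg.Spor.Fi24 × X := fun x => (g12 x, g x)
  have hg : ∀ w, gword v w = (gword g12 w, gword g w) := by
    intro w
    induction w with
    | nil => rfl
    | cons x w ih => rw [gword_cons, gword_cons, gword_cons, ih]; rfl
  have hgraph : ∀ b ∈ Hv v, ∃ a : Hs, b = ((a : Cfsg.Spor.Fi24), rho a) := by
    intro b hb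
    induction hb using Subgroup.closure_induction with
    | mem b hb =>
      obtain ⟨x, hx, rfl⟩ := hb
      have hx' : x < 11 := by simp [L11] at hx; omega
      exact ⟨⟨g12 x, g12_mem_Hs hx'⟩, Prod.ext rfl (hrho x hx').symm⟩
    | one => exact ⟨1, Prod.ext rfl (map_one rho).symm⟩
    | mul a b _ _ ha hb =>
      obtain ⟨a, rfl⟩ := ha
      obtain ⟨b, rfl⟩ := hb
      exact ⟨a * b, Prod.ext rfl (map_mul rho a b).symm⟩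
    | inv a _ ha =>
      obtain ⟨a, rfl⟩ := ha
      exact ⟨a⁻¹, Prod.ext rfl (map_inv rho a).symm⟩
  have hL : Lift v (MonoidHom.fst Cfsg.Spor.Fi24 X) :=
    { inv := fun x => Prod.ext (g12_inv x) (hinv x)
      proj := fun x => rfl
      rel := fun w hw => by
        obtain ⟨h1, h2, h3⟩ := mem_relC hw
        rw [hg, gword_relW w h1, hrel w h1 h2 h3]
        rfl
      inj := fun b hb h1 => by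
        obtain ⟨a, rfl⟩ := hgraph b hb
        obtain rfl : a = 1 := Subtype.ext h1
        exact Prod.ext rfl (map_one rho)
      wl := by
        show gword v wlW * v 11 = v 11 * gword v wlW
        rw [hg]
        exact Prod.ext wl_commute_k.eq hwl.eq }
  have e := hL.long
  rw [hg, Prod.mk_eq_one] at e
  exact e.2

end CfsgLib.AutLf48
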