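import Cfsg.Agent.AutLf48.Local
import Cfsg.Agent.LargeFischer58.Exists
import Cfsg.Agent.LargeFischer58.Four
import Cfsg.Agent.FStar.SelfCentralizing
import Cfsg.Agent.Cores.Quasisimple
import Cfsg.Agent.AutLf48.Outer

/-!
From the hypotheses on an extension of index two of a group of large Fischer type, given the
centralizer of a noncentral involution of `Q`, to the configuration.
-/

set_option autoImplicit false
set_option maxRecDepth 100000

namespace CfsgLib.AutLf48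

open Cfsg CfsgLib.LargeFischer85 CfsgLib.LargeFischer28 CfsgLib.LargeFischer45
open CfsgLib.LargeFischer58 (e1 e2)

universe w

variable {X : Type w} [Group X] [Finite X] {G₀ : Subgroup X}

theorem hM_sq {z : ↥G₀} {Q : Subgroup ↥(CG z)} [Q.Normal] (C : LargeFischer58.Cfg z Q) {q : ↥Q} :
    sing (C.pr q) ↔ q * q = 1 :=
  C.std.model.pr_sq q

theorem isQuasisimple_map_inj {A : Type*} [Group A] {B : Type*} [Group B] {K : Subgroup A}
    (h : IsQuasisimple ↥K) (f : A →* B) (hf : Function.Injective f) :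
    IsQuasisimple ↥(K.map f) :=
  CfsgLib.Cores.isQuasisimple_congr (Subgroup.equivMapOfInjective K f hf) h

theorem exists_vec (hn : G₀.Normal) (z : ↥G₀) (Q : Subgroup ↥(CG z)) [Q.Normal]
    (C : LargeFischer58.Cfg z Q)
    (hFX : (generalizedFittingSubgroup ↥(Subgroup.centralizer ({(z : X)} : Set X))).map
      (Subgroup.subtype _) = (Q.map (Subgroup.subtype _)).map G₀.subtype) :
    ∃ (R : Subgroup X) (V : Vec G₀ (z : X) R), R = (Q.map (Subgroup.subtype _)).map G₀.subtype ∧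
      ∀ q : ↥Q, V.P (((q : ↥(CG z)) : ↥G₀) : X) = C.pr q := by
  classical
  have hM := C.std.model
  obtain ⟨R, hR⟩ : ∃ R, (Q.map (Subgroup.subtype _)).map G₀.subtype = R := ⟨_, rfl⟩
  have hmem : ∀ x, x ∈ R ↔ ∃ q : ↥Q, (((q : ↥(CG z)) : ↥G₀) : X) = x := fun x => by
    rw [← hR]
    constructor
    · rintro ⟨_, ⟨q, hq, rfl⟩, rfl⟩; exact ⟨⟨q, hq⟩, rfl⟩
    · rintro ⟨q, rfl⟩; exact ⟨_, ⟨q.1, q.2, rfl⟩, rfl⟩
  obtain ⟨P, hP⟩ : ∃ P : X → W, ∀ q : ↥Q, P (((q : ↥(CG z)) : ↥G₀) : X) = C.pr q := by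
    refine ⟨Function.extend (fun q : ↥Q => (((q : ↥(CG z)) : ↥G₀) : X)) C.pr (fun _ => 0),
      fun q => Function.Injective.extend_apply ?_ _ _ q⟩
    exact Subtype.val_injective.comp (Subtype.val_injective.comp Subtype.val_injective)
  have hz : orderOf (z : X) = 2 := (Subgroup.orderOf_coe z).trans hM.ord
  obtain ⟨σ, hσ⟩ := exists_scalar C
  have hnorm : ∀ g : X, Commute g (z : X) → ∀ q ∈ R, g * q * g⁻¹ ∈ R := by
    intro g hg q hq
    rw [hR.symm.trans hFX.symm] at hq ⊢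
    obtain ⟨f, hf, rfl⟩ := hq
    obtain ⟨g', hg'⟩ : ∃ g' : ↥(Subgroup.centralizer ({(z : X)} : Set X)), (g' : X) = g :=
      ⟨⟨g, Subgroup.mem_centralizer_singleton_iff.2 hg.eq⟩, rfl⟩
    exact ⟨g' * f * g'⁻¹, Subgroup.Normal.conj_mem inferInstance f hf g', by rw [← hg']; rfl⟩
  have hlift : ∀ g : X, g ∈ G₀ → Commute g (z : X) → ∃ h : ↥(CG z), ((h : ↥G₀) : X) = g :=
    fun g hg hc => ⟨⟨⟨g, hg⟩, Subgroup.mem_centralizer_singleton_iff.2 (Subtype.ext hc.eq)⟩, rfl⟩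
  have hact : ∀ (h : ↥(CG z)) (q : ↥Q),
      P (((h : ↥G₀) : X) * (((q : ↥(CG z)) : ↥G₀) : X) * ((h : ↥G₀) : X)⁻¹) =
        fhom C.act h (C.pr q) := by
    intro h q
    obtain ⟨r, hr, hpr⟩ := act_pr' hM h q
    rw [← hpr, ← hP r, hr]
    rfl
  have hcubeQ : σ ^ 3 ∈ Q := (fhom_ker hM _).1 (by rw [map_pow, hσ, omP_cube])
  refine ⟨R, {
    P := P
    R_le := ?_
    normal := hnorm
    z_mem := (hmem _).2 ⟨⟨_, hM.mem⟩, rfl⟩
    z_sq := by rw [← pow_two, ← hz, pow_orderOf_eq_one]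
    z_ne := fun e => by rw [e, orderOf_one] at hz; norm_num at hz
    mul := ?_
    zero := ?_
    surj := fun v => ?_
    comm := ?_
    sq := ?_
    card := ?_
    self := ?_
    σ := ((σ : ↥G₀) : X)
    σ_mem := ?_
    σ_cube := (hmem _).2 ⟨⟨_, hcubeQ⟩, rfl⟩
    σ_act := ?_
    σ_auto := ?_ }, hR.symm, hP⟩
  · intro x hx
    obtain ⟨q, rfl⟩ := (hmem x).1 hx
    refine ⟨((q : ↥(CG z)) : ↥G₀).2, Subgroup.mem_centralizer_singleton_iff.2 ?_⟩
    exact congrArg Subtype.val (Subgroup.mem_centralizer_singleton_iff.1 (q : ↥(CG z)).2)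
  · intro a ha b hb
    obtain ⟨a, rfl⟩ := (hmem a).1 ha
    obtain ⟨b, rfl⟩ := (hmem b).1 hb
    rw [hP, hP, ← hM.pr_mul, ← hP (a * b)]
    rfl
  · intro a ha
    obtain ⟨a, rfl⟩ := (hmem a).1 ha
    rw [hP, hM.pr_zero]
    exact or_congr Subtype.ext_iff Subtype.ext_iff
  · obtain ⟨q, rfl⟩ := hM.pr_surj v
    exact ⟨_, (hmem _).2 ⟨q, rfl⟩, hP q⟩
  · intro a ha b hb
    obtain ⟨a, rfl⟩ := (hmem a).1 ha
    obtain ⟨b, rfl⟩ := (hmem b).1 hb
    rw [hP, hP, ← comm_iff_orth hM a b]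
    exact ⟨fun h => Subtype.ext (Subtype.ext h.eq), fun h => congrArg (fun x : ↥(CG z) => ((x : ↥G₀) : X)) h⟩
  · intro a ha
    obtain ⟨a, rfl⟩ := (hmem a).1 ha
    rw [hP, hM.pr_sq]
    exact ⟨fun h => congrArg (fun x : ↥Q => (((x : ↥(CG z)) : ↥G₀) : X)) h,
      fun h => Subtype.ext (Subtype.ext (Subtype.ext h))⟩
  · rw [← hR, Subgroup.card_map_of_injective G₀.subtype_injective,
      Subgroup.card_map_of_injective (Subgroup.subtype_injective _)]
    exact C.card_Q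
  · intro g hg hc
    rw [hR.symm.trans hFX.symm] at hc ⊢
    refine ⟨⟨g, Subgroup.mem_centralizer_singleton_iff.2 hg.eq⟩,
      FStar.centralizer_generalizedFitting_le (Subgroup.mem_centralizer_iff.2 fun f hf => ?_), rfl⟩
    exact Subtype.ext (hc _ ⟨f, hf, rfl⟩).eq.symm
  · exact ⟨(σ : ↥G₀).2, Subgroup.mem_centralizer_singleton_iff.2
      (congrArg Subtype.val (Subgroup.mem_centralizer_singleton_iff.1 σ.2))⟩
  · intro q hq
    obtain ⟨q, rfl⟩ := (hmem q).1 hq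
    rw [hact, hσ, hP]
    rfl
  · intro d hd
    have hidx : ∀ h : ↥(CG z), d * ((h : ↥G₀) : X) * d⁻¹ ∈ G₀ → ∃ h' : ↥(CG z),
        ((h' : ↥G₀) : X) = d * ((h : ↥G₀) : X) * d⁻¹ := fun h hG => hlift _ hG (by
      have e : Commute ((h : ↥G₀) : X) (z : X) :=
        congrArg Subtype.val (Subgroup.mem_centralizer_singleton_iff.1 h.2)
      exact (hd.mul_left e).mul_left hd.inv_left)
    choose α hα using fun h : ↥(CG z) => hidx h (hn.conj_mem _ (h : ↥G₀).2 d)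
    have hinj : ∀ {a b : ↥(CG z)}, ((a : ↥G₀) : X) = ((b : ↥G₀) : X) → a = b := fun e =>
      Subtype.ext (Subtype.ext e)
    have hmul : ∀ a b, α (a * b) = α a * α b := fun a b => hinj (by
      show _ = ((α a : ↥G₀) : X) * ((α b : ↥G₀) : X)
      rw [hα, hα, hα]
      show d * (((a : ↥G₀) : X) * ((b : ↥G₀) : X)) * d⁻¹ = _
      group)
    obtain ⟨A, hA⟩ : ∃ A : ↥(CG z) →* ↥(CG z), ∀ h, A h = α h := ⟨MonoidHom.mk' α hmul, fun _ => rfl⟩
    have hQα : ∀ h, α h ∈ Q ↔ h ∈ Q := fun h => by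
      constructor
      · intro hh
        have := hnorm d⁻¹ hd.inv_left _ ((hmem _).2 ⟨⟨_, hh⟩, rfl⟩)
        simp only [hα] at this
        rw [show d⁻¹ * (d * ((h : ↥G₀) : X) * d⁻¹) * d⁻¹⁻¹ = ((h : ↥G₀) : X) by group, hmem] at this
        obtain ⟨q, hq⟩ := this
        exact hinj hq ▸ q.2
      · intro hh
        have := hnorm d hd _ ((hmem _).2 ⟨⟨h, hh⟩, rfl⟩)
        rw [← hα, hmem] at this
        obtain ⟨q, hq⟩ := this
        exact hinj hq ▸ q.2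
    obtain ⟨k, hk⟩ : ∃ k, fhom C.act (α σ) = k := ⟨_, rfl⟩
    have hk3 : k ^ 3 = 1 := by
      rw [← hk, ← map_pow, ← hA, ← map_pow, hA, fhom_ker hM, hQα]
      exact hcubeQ
    have hkn : ∀ g ∈ (fhom C.act).range, g * k * g⁻¹ = k ∨ g * k * g⁻¹ = k⁻¹ := by
      rintro _ ⟨h, rfl⟩
      obtain ⟨h0, rfl⟩ : ∃ h0, α h0 = h := by
        obtain ⟨h0, e⟩ := hlift (d⁻¹ * ((h : ↥G₀) : X) * d) (by
          simpa using hn.conj_mem _ (h : ↥G₀).2 d⁻¹) (by
          have e : Commute ((h : ↥G₀) : X) (z : X) :=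
            congrArg Subtype.val (Subgroup.mem_centralizer_singleton_iff.1 h.2)
          exact (hd.inv_left.mul_left e).mul_left hd)
        exact ⟨h0, hinj (by rw [hα, e]; group)⟩
      have key : fhom C.act h0 * omP * (fhom C.act h0)⁻¹ = omP ∨
          fhom C.act h0 * omP * (fhom C.act h0)⁻¹ = omP⁻¹ := by
        rcases (fhom_good hM h0).semi with hs | hs
        · exact Or.inl (mul_inv_eq_iff_eq_mul.2 (Equiv.ext fun n => hs n))
        · exact Or.inr (mul_inv_eq_iff_eq_mul.2 (Equiv.ext fun n => hs n))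
      rw [← hσ, ← map_inv, ← map_mul, ← map_mul, ← map_inv] at key
      rcases key with e | e
      · left
        rw [← hk, ← map_inv, ← map_mul, ← map_mul, ← hA, ← hA, ← map_inv, ← map_mul, ← map_mul, hA,
          hA, LargeFischer58.Cfg.fhom_eq_iff, ← hA, ← hA, ← map_inv, ← map_mul, hA, hQα]
        exact C.fhom_eq_iff.1 e
      · right
        rw [← hk, ← map_inv, ← map_mul, ← map_mul, ← map_inv, ← hA, ← hA, ← map_inv, ← map_mul,
          ← map_mul, ← map_inv, hA, hA, LargeFischer58.Cfg.fhom_eq_iff, ← hA, ← hA, ← map_inv,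
          ← map_mul, hA, hQα]
        exact C.fhom_eq_iff.1 e
    have hPα : ∀ q ∈ R, P (d * ((σ : ↥G₀) : X) * d⁻¹ * q * (d * ((σ : ↥G₀) : X) * d⁻¹)⁻¹) =
        k (P q) := by
      intro q hq
      obtain ⟨q, rfl⟩ := (hmem q).1 hq
      rw [← hα, hact, hk, hP]
    rcases scalar_of_normal C ⟨_, hk⟩ hk3 hkn with e | e | e
    · exfalso
      have h1 : σ ∈ Q := (hQα σ).1 ((fhom_ker hM _).1 (hk.trans e))
      have h2 := hσ.symm.trans ((fhom_ker hM _).2 h1)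
      exact line_facts.2.2.2.1 (congrArg (fun f : Equiv.Perm W => f e1) h2)
    · exact Or.inl fun q hq => by rw [hPα q hq, e]; rfl
    · exact Or.inr fun q hq => by rw [hPα q hq, e]; rfl

/-- The configuration from the centralizer of a noncentral involution of `Q`. -/
theorem exists_core (hidx : G₀.index = 2) (z : ↥G₀) (Q : Subgroup ↥(CG z)) [Q.Normal]
    (hF : IsOfLargeFischerTypeAt z Q)
    (hcentral : ∃ P : Sylow 2 ↥G₀, z ∈ (P : Subgroup ↥G₀) ∧
      ∀ x ∈ (P : Subgroup ↥G₀), Commute x z)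
    (hFX : (generalizedFittingSubgroup ↥(Subgroup.centralizer ({(z : X)} : Set X))).map
      (Subgroup.subtype _) = (Q.map (Subgroup.subtype _)).map G₀.subtype)
    (h50 : ∀ t : ↥G₀, (∃ htc : t ∈ CG z, (⟨t, htc⟩ : ↥(CG z)) ∈ Q) → orderOf t = 2 → ¬ IsConj z t →
      ∀ (_ : ((Subgroup.zpowers t).subgroupOf (CG t)).Normal),
      ∃ K : Subgroup ↥(CG t), K = generalizedFittingSubgroup ↥(CG t) ∧ IsQuasisimple ↥K ∧
        K.index = 2 ∧ (⟨t, Subgroup.mem_centralizer_singleton_iff.2 rfl⟩ : ↥(CG t)) ∈ K ∧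
        Nonempty (↥(CG t) ⧸ (Subgroup.zpowers t).subgroupOf (CG t) ≃* MulAut Spor.Fi22)) :
    ∃ d t u v : X, ∃ _ : Core G₀ (z : X) d t u v, ∃ K : Subgroup X,
      (∀ x, x ∈ K ↔ x ∈ G₀ ∧ Commute x d ∧ Commute x t) ∧ IsQuasisimple ↥K ∧
      ∃ f : ↥K →* Spor.Fi22, Function.Surjective f ∧ ∀ k, f k = 1 ↔ (k : X) = 1 ∨ (k : X) = t := by
  classical
  obtain ⟨C⟩ := LargeFischer58.exists_cfg hF
  have hn : G₀.Normal := Subgroup.normal_of_index_eq_two hidx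
  obtain ⟨R, V, hR, hVP⟩ := exists_vec hn z Q C hFX
  obtain ⟨q₁, hq₁, hq₁e⟩ := C.q1
  obtain ⟨t, ht⟩ : ∃ t : ↥G₀, ((q₁ : ↥(CG z)) : ↥G₀) = t := ⟨_, rfl⟩
  have hto : Other z t := ht ▸ hq₁e.symm ▸ C.duads.other _ _ C.hab
  obtain ⟨ht1, htz⟩ := hto
  have ht2 : t * t = 1 := by
    rw [← ht, hq₁e]
    exact C.AG_sq (C.duads.mem _ _ C.hab)
  have htor : orderOf t = 2 := orderOf_eq_prime (p := 2) (by rw [pow_two, ht2]) ht1
  have hPt : V.P (t : X) = e1 := by rw [← ht, hVP, hq₁]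
  have htR : (t : X) ∈ R := by
    rw [hR, ← ht]
    exact ⟨_, ⟨q₁.1, q₁.2, rfl⟩, rfl⟩
  have hnc : ∀ g ∈ G₀, g * (t : X) * g⁻¹ ≠ (z : X) := fun g hg e =>
    htz (isConj_iff.2 ⟨⟨g, hg⟩, Subtype.ext e⟩).symm
  -- an element outside `G₀` centralizing `t`
  obtain ⟨P, hzP, hPz⟩ := hcentral
  have hRP : ∀ q : ↥Q, ((q : ↥(CG z)) : ↥G₀) ∈ (P : Subgroup ↥G₀) := by
    have hQ2 : IsPGroup 2 ↥(Q.map (CG z).subtype) :=
      IsPGroup.of_card (n := 13) (by
        rw [Subgroup.card_map_of_injective (Subgroup.subtype_injective _)]; exact C.card_Q)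
    have hle : (P : Subgroup ↥G₀) ≤ Subgroup.normalizer (Q.map (CG z).subtype : Set ↥G₀) := by
      refine fun p hp => Subgroup.le_normalizer_map (H := Q) (CG z).subtype
        ⟨⟨p, Subgroup.mem_centralizer_singleton_iff.2 (hPz p hp).eq⟩, ?_, rfl⟩
      rw [Subgroup.normalizer_eq_top_iff.2 inferInstance]
      trivial
    have hsup := P.3 (IsPGroup.to_sup_of_normal_right' P.2 hQ2 hle) le_sup_left
    exact fun q => hsup ▸ Subgroup.mem_sup_right ⟨q.1, q.2, rfl⟩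
  obtain ⟨x, hx⟩ : ∃ x, x ∉ G₀ := by
    by_contra h
    push Not at h
    rw [(Subgroup.eq_top_iff' G₀).2 h, Subgroup.index_top] at hidx
    norm_num at hidx
  obtain ⟨P', hP'⟩ : ∃ P' : Sylow 2 ↥G₀, ∀ g : ↥G₀, g ∈ (P' : Subgroup ↥G₀) ↔
      (MulAut.conjNormal (H := G₀) x).symm g ∈ (P : Subgroup ↥G₀) := by
    refine ⟨P.mapSurjective (f := (MulAut.conjNormal (H := G₀) x).toMonoidHom)
      (MulEquiv.surjective _), fun g => ?_⟩
    exact Subgroup.mem_map_equiv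
  obtain ⟨h, hh⟩ := MulAction.exists_smul_eq ↥G₀ P P'
  obtain ⟨y, hy⟩ : ∃ y, x⁻¹ * (h : X) = y := ⟨_, rfl⟩
  have hyG : y ∉ G₀ := fun e => hx (by
    have := mul_mem e (inv_mem h.2)
    rw [← hy, mul_inv_cancel_right] at this
    simpa using inv_mem this)
  have hyP : ∀ p ∈ (P : Subgroup ↥G₀), ∃ p' ∈ (P : Subgroup ↥G₀), y * (p : X) * y⁻¹ = p' := by
    intro p hp
    have h1 : h * p * h⁻¹ ∈ (P' : Subgroup ↥G₀) := by
      rw [← hh]
      exact ⟨p, hp, rfl⟩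
    refine ⟨_, (hP' _).1 h1, ?_⟩
    rw [MulAut.conjNormal_symm_apply, ← hy]
    simp only [Subgroup.coe_mul, InvMemClass.coe_inv]
    group
  have hyz : Commute y (z : X) := by
    have hfin : ∀ p ∈ (P : Subgroup ↥G₀), ∃ p' ∈ (P : Subgroup ↥G₀), y * (p' : X) * y⁻¹ = p := by
      intro p hp
      choose φ hφ hφe using hyP
      let F : ↥(P : Subgroup ↥G₀) → ↥(P : Subgroup ↥G₀) := fun p => ⟨φ p.1 p.2, hφ p.1 p.2⟩
      have hFinj : Function.Injective F := fun a b e => Subtype.ext (Subtype.ext (by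
        have e' : ((φ a.1 a.2 : ↥G₀) : X) = φ b.1 b.2 :=
          congrArg (fun c : ↥(P : Subgroup ↥G₀) => ((c : ↥G₀) : X)) e
        exact mul_left_cancel (mul_right_cancel ((hφe a.1 a.2).trans (e'.trans (hφe b.1 b.2).symm)))))
      obtain ⟨⟨p', hp'⟩, e⟩ := Finite.injective_iff_surjective.1 hFinj ⟨p, hp⟩
      exact ⟨p', hp', (hφe p' hp').trans (congrArg (fun c : (P : Subgroup ↥G₀) => ((c : ↥G₀) : X)) e)⟩
    obtain ⟨w, hw⟩ : ∃ w, y * (z : X) * y⁻¹ = w := ⟨_, rfl⟩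
    have hwG : w ∈ G₀ := hw ▸ hn.conj_mem _ z.2 y
    have hwP : ∀ p ∈ (P : Subgroup ↥G₀), Commute w (p : X) := fun p hp => by
      obtain ⟨p', hp', e⟩ := hfin p hp
      rw [← hw, ← e]
      have hc : Commute (p' : X) (z : X) := congrArg Subtype.val (hPz p' hp').eq
      exact hc.symm.map (MulAut.conj y)
    have hwz : Commute w (z : X) := hwP z hzP
    have hwR : w ∈ R := V.self w hwz fun q hq => by
      rw [hR] at hq
      obtain ⟨_, ⟨q', hq', rfl⟩, rfl⟩ := hq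
      exact hwP _ (hRP ⟨q', hq'⟩)
    have h0 : V.P w = 0 := by
      by_contra hne
      obtain ⟨v, hv⟩ := orth_nondeg hne
      obtain ⟨a, ha, rfl⟩ := V.surj v
      have ha' := ha
      rw [hR] at ha'
      obtain ⟨_, ⟨q', hq', rfl⟩, rfl⟩ := ha'
      exact hv ((V.comm _ ha w hwR).1 (hwP _ (hRP ⟨q', hq'⟩)).symm)
    rcases (V.zero w hwR).1 h0 with e | e
    · rw [← hw, conj_eq_one_iff] at e
      exact absurd e V.z_ne
    · exact mul_inv_eq_iff_eq_mul.1 (hw.trans e)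
  obtain ⟨t', ht'⟩ : ∃ t', y * (t : X) * y⁻¹ = t' := ⟨_, rfl⟩
  have ht'R : t' ∈ R := ht' ▸ V.normal y hyz _ htR
  have ht'R₀ : t' ∈ R := ht'R
  rw [hR] at ht'R
  obtain ⟨_, ⟨q₂, hq₂, rfl⟩, he₂⟩ := ht'R
  replace he₂ : ((q₂ : ↥G₀) : X) = t' := he₂
  have h1 : inOne 0 (C.pr q₁) := hq₁.symm ▸ LargeFischer58.lineBasic.2.2.1
  have hq20 : C.pr ⟨q₂, hq₂⟩ ≠ 0 := by
    intro e
    have hm : ((q₂ : ↥G₀) : X) ∈ R := by rw [he₂]; exact ht'R₀
    have e0 : V.P ((q₂ : ↥G₀) : X) = 0 := (hVP ⟨q₂, hq₂⟩).trans e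
    rcases (V.zero _ hm).1 e0 with e | e <;> rw [he₂, ← ht'] at e
    · rw [conj_eq_one_iff] at e
      exact ht1 (Subtype.ext e)
    · refine hnc 1 G₀.one_mem ?_
      simp only [one_mul, inv_one, mul_one]
      calc (t : X) = y⁻¹ * (y * t * y⁻¹) * y := by group
        _ = y⁻¹ * (z : X) * y := by rw [e]
        _ = (z : X) := by rw [mul_assoc, ← hyz.eq, inv_mul_cancel_left]
  have hsq2 : sing (C.pr ⟨q₂, hq₂⟩) := by
    rw [hM_sq C]
    refine Subtype.ext (Subtype.ext (Subtype.ext ?_))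
    show ((q₂ : ↥G₀) : X) * ((q₂ : ↥G₀) : X) = 1
    rw [show ((q₂ : ↥G₀) : X) = y * (t : X) * y⁻¹ from he₂.trans ht'.symm, conj_mul,
      show (t : X) * (t : X) = 1 from congrArg Subtype.val ht2, mul_one, mul_inv_cancel]
  have hone : inOne 0 (C.pr ⟨q₂, hq₂⟩) := by
    by_contra hn1
    obtain ⟨g, hg⟩ := isConj_iff.1 ((C.std.cls.two _ hq20 hsq2).2 hn1)
    have hg' : (g : X) * (z : X) * (g : X)⁻¹ = y * (t : X) * y⁻¹ :=
      (congrArg Subtype.val hg).trans (he₂.trans ht'.symm)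
    refine hnc (y⁻¹ * (g : X)⁻¹ * y) (by simpa using hn.conj_mem _ (inv_mem g.2) y⁻¹) ?_
    calc y⁻¹ * (g : X)⁻¹ * y * t * (y⁻¹ * (g : X)⁻¹ * y)⁻¹
        = y⁻¹ * ((g : X)⁻¹ * (y * t * y⁻¹) * g) * y := by group
      _ = y⁻¹ * (z : X) * y := by rw [← hg']; group
      _ = (z : X) := by rw [mul_assoc, ← hyz.eq, inv_mul_cancel_left]
  obtain ⟨h', hh'⟩ := isConj_iff.1 (C.std.cls.one q₁ ⟨q₂, hq₂⟩ h1 hone)
  obtain ⟨g, hg⟩ : ∃ g, (h' : X)⁻¹ * y = g := ⟨_, rfl⟩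
  have hgG : g ∉ G₀ := fun e => hyG (by
    have := mul_mem h'.2 e
    rwa [← hg, mul_inv_cancel_left] at this)
  have hgt : Commute g (t : X) := by
    refine mul_inv_eq_iff_eq_mul.1 ?_
    have e : (h' : X) * (t : X) * (h' : X)⁻¹ = y * (t : X) * y⁻¹ := by
      rw [ht', ← he₂, ← ht]
      exact congrArg Subtype.val hh'
    rw [← hg, show (h' : X)⁻¹ * y * t * ((h' : X)⁻¹ * y)⁻¹ = (h' : X)⁻¹ * (y * t * y⁻¹) * h' by group,
      ← e]
    group
  have : ((Subgroup.zpowers t).subgroupOf (CG t)).Normal := by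
    refine ⟨fun n hn g => ?_⟩
    obtain ⟨i, hi⟩ := Subgroup.mem_subgroupOf.1 hn
    refine Subgroup.mem_subgroupOf.2 ⟨i, ?_⟩
    have hc : Commute (g : ↥G₀) t := Subgroup.mem_centralizer_singleton_iff.1 g.2
    show t ^ i = (g : ↥G₀) * (n : ↥G₀) * (g : ↥G₀)⁻¹
    rw [← hi, (hc.zpow_right i).eq, mul_inv_cancel_right]
  obtain ⟨K, hKF, hKq, hKi, htK, ⟨e⟩⟩ := h50 t
    ⟨ht ▸ (q₁ : ↥(CG z)).2, by
      have : (⟨t, ht ▸ (q₁ : ↥(CG z)).2⟩ : ↥(CG z)) = q₁ := Subtype.ext ht.symm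
      rw [this]; exact q₁.2⟩ htor htz this
  have hKn : K.Normal := hKF ▸ inferInstance
  obtain ⟨d, KX, hKX, hdG, hdt, hdd, hdK, hcK, hKc, hab, f, hf, hker⟩ :=
    exists_outer G₀ hidx t htor K hKq hKi htK e hKF g hgG hgt
  have htKX : (t : X) ∈ KX := hKX ▸ ⟨_, ⟨_, htK, rfl⟩, rfl⟩
  have hKG : ∀ k ∈ KX, k ∈ G₀ ∧ Commute k (t : X) := by
    rw [hKX]
    rintro _ ⟨_, ⟨k, -, rfl⟩, rfl⟩
    exact ⟨(k : ↥G₀).2, congrArg Subtype.val (Subgroup.mem_centralizer_singleton_iff.1 k.2)⟩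
  -- `d` centralizes `z`, a commutator in the centralizer of `t`
  have hzK : (z : X) ∈ KX := by
    obtain ⟨v, hv1, hv2⟩ := dual_one line_facts.2.1 line_facts.2.2.1 line_facts.2.2.2.1
    obtain ⟨a, ha, rfl⟩ := V.surj v
    obtain ⟨b, hb, hPb⟩ := V.surj (om e1)
    have hbt : Commute b (t : X) := (V.comm b hb _ htR).2 (by rw [hPb, hPt]; exact InL_self_orth.2.2.1)
    have hat : Commute a (t : X) := (V.comm a ha _ htR).2 (hPt.symm ▸ hv1)
    have := (hab a (V.R_le ha).1 b (V.R_le hb).1 hat hbt).1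
    rwa [(V.conj_cases ha hb).2 (hPb.symm ▸ hv2), (V.comm_z hb).eq, mul_inv_cancel_right] at this
  have hdz : Commute d (z : X) := hdK _ hzK
  have hd0t : ∀ w, Commute w (t : X) → w * d * w⁻¹ = d ∨ w * d * w⁻¹ = d * (t : X) := by
    intro w hw
    have hout : w * d * w⁻¹ ∉ G₀ := fun h => hdG (by
      simpa [mul_assoc] using hn.conj_mem _ h w⁻¹)
    have hc : ∀ k ∈ KX, Commute (w * d * w⁻¹) k := fun k hk => by
      have := (hdK _ (hKc w⁻¹ hw.inv_left k hk)).map (MulAut.conj w)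
      simpa [mul_assoc] using this
    rcases hcK _ ((hw.mul_left hdt).mul_left hw.inv_left) hc with e | e | e | e
    · exact absurd (e ▸ G₀.one_mem) hout
    · exact absurd (e ▸ t.2) hout
    · exact Or.inl e
    · exact Or.inr e
  have hns : ∀ w, Commute w (t : X) → w * d * w⁻¹ = d * (t : X) →
      ∃ y : ↥(G₀ ⊓ Subgroup.centralizer ({d} : Set X)), Commute (y : X) t ∧ ¬ Commute w y := by
    intro w hw hwd
    by_contra hno
    push Not at hno
    have hc : ∀ k ∈ KX, Commute w k := fun k hk =>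
      hno ⟨k, (hKG k hk).1, Subgroup.mem_centralizer_singleton_iff.2 (hdK k hk).symm.eq⟩ (hKG k hk).2
    have hd' : Commute w d := by
      rcases hcK w hw hc with e | e | e | e <;> rw [e]
      · exact Commute.one_left d
      · exact hdt.symm
      · exact (Commute.refl d).mul_left hdt.symm
    rw [hd'.eq, mul_inv_cancel_right] at hwd
    exact ht1 (Subtype.ext (left_eq_mul.1 hwd))
  obtain ⟨u, v, C', -⟩ := core_of V hidx hdG hdz hdt hdd htR hPt hnc hd0t hns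
    (fun a ha b hb hat hbt had hbd => (hdK _ ((hab a (V.R_le ha).1 b (V.R_le hb).1 hat hbt).2
      (fun h => had (hdK a h).symm) fun h => hbd (hdK b h).symm)).symm)
  refine ⟨d, t, u, v, C', KX, fun k => ⟨fun hk => ⟨(hKG k hk).1, (hdK k hk).symm, (hKG k hk).2⟩,
    ?_⟩, ?_, f, hf, hker⟩
  · rintro ⟨hkG, hkd, hkt⟩
    by_contra hk
    obtain ⟨a0, ha0G, ha0t, ha0⟩ := C'.swap
    have ha0K : a0 ∉ KX := fun h => by
      rw [(hdK a0 h).symm.eq, mul_inv_cancel_right] at ha0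
      exact ht1 (Subtype.ext (left_eq_mul.1 ha0))
    have h2 : Commute (a0 * k) d := (hdK _ ((hab a0 ha0G k hkG ha0t hkt).2 ha0K hk)).symm
    have h3 := h2.mul_left hkd.inv_left
    rw [mul_inv_cancel_right] at h3
    rw [h3.eq, mul_inv_cancel_right] at ha0
    exact ht1 (Subtype.ext (left_eq_mul.1 ha0))
  · rw [hKX, Subgroup.map_map]
    exact isQuasisimple_map_inj hKq _ (G₀.subtype_injective.comp (Subgroup.subtype_injective _))

end CfsgLib.AutLf48
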