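import Cfsg.Agent.AutLf48.UniqueData
import Cfsg.Agent.Fi23Out54.Checks
import Cfsg.Agent.Fi23Type67.Main

/-!
Fi23: at least 351 members of the class generated from the letter 1 by the letters 1, ..., 9
commute with that letter.
-/

set_option autoImplicit false
set_option maxRecDepth 100000

namespace CfsgLib.AutLf48.UniqueCert

open CfsgLib.CosetEnum CfsgLib.CosetEnum.Fi23 CfsgLib.Fi23Out54 CfsgLib.ThreeTransp

/-- the letters of a code -/
def dig : ℕ → ℕ → List ℕ
  | 0, _ => []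
  | f + 1, c => if c = 0 then [] else c % 10 :: dig f (c / 10)

theorem pts_check : (UniqueData.pts.all fun q =>
    ((dig 30 q.2).all fun x => Nat.blt 0 x && x.blt 10) &&
      Nat.beq (act (dig 30 q.2) (gP 1)) q.1 && Nat.beq (act [1] q.1) q.1 &&
      !(Nat.beq q.1 (gP 1))) = true := by
  decide +kernel

theorem pts_nodup : (UniqueData.pts.map Prod.fst).Pairwise (· < ·) ∧ UniqueData.pts.length = 351 := by
  decide +kernel

/-- the point of the letter 1 -/
noncomputable def pt1 : Pt := pi (gword g10 (gW 1))⁻¹ P0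

theorem pt1_val : ((pt1 : Pt) : ℕ) = gP 1 := by
  have h := (Model.allBelow_iff _ _).1 gen_check 1 (by norm_num)
  simp only [Bool.and_eq_true] at h
  rw [pt1, act_eq _ (of_lt10 h.1.1.1), pt_val]
  exact Nat.eq_of_beq_eq_true h.1.1.2

theorem gen1_tran : gen 1 = tran pt1 := by
  have h := (Model.allBelow_iff _ _).1 gen_check 1 (by norm_num)
  simp only [Bool.and_eq_true] at h
  have hw := of_lt10 h.1.1.1
  have e := gword_eq_of_base (v := (gW 1).reverse ++ zW ++ gW 1) (w := [1])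
    (fun y hy => by
      rcases List.mem_append.1 hy with hy | hy
      · exact (List.mem_append.1 hy).elim (fun hy => hw y (List.mem_reverse.1 hy)) (zW_lt10 y)
      · exact hw y hy)
    (fun y hy => by rw [List.mem_singleton.1 hy]; norm_num) h.2
  rw [gword_app, gword_app, gword_reverse, CfsgLib.CosetEnum.Fi23.gword_one,
    show g10 1 = gen 1 from letterVal_lt gen (by norm_num)] at e
  rw [← e, pt1, tran_eq (g := (gword g10 (gW 1))⁻¹) rfl, inv_inv]
  rfl

/-- A word in the letters 1, ..., 9 applied to the letter 1. -/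
theorem closed_conj {P : Cfsg.Spor.Fi23 → Prop} (h1 : P (gen 1))
    (hs : ∀ x, 1 ≤ x → x < 10 → ∀ y, P y → P (gen x * y * gen x)) :
    ∀ w : List ℕ, (∀ x ∈ w, 1 ≤ x ∧ x < 10) → P ((gword g10 w)⁻¹ * gen 1 * gword g10 w) := by
  intro w
  induction w using List.reverseRecOn with
  | nil => intro _; rw [gword_nil]; simpa using h1
  | append_singleton w x ih =>
    intro hw
    have hx := hw x (by simp)
    have hg : g10 x = gen x := letterVal_lt gen hx.2
    rw [gword_app, CfsgLib.CosetEnum.Fi23.gword_one, hg,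
      show (gword g10 w * gen x)⁻¹ * gen 1 * (gword g10 w * gen x) =
        (gen x)⁻¹ * ((gword g10 w)⁻¹ * gen 1 * gword g10 w) * gen x by group,
      Fi23.gen_inv]
    exact hs x hx.1 hx.2 _ (ih fun y hy => hw y (by simp [hy]))

theorem exists_members : ∃ S : Finset Cfsg.Spor.Fi23, S.card = 351 ∧
    (∀ y ∈ S, y ∈ nbr Fi23Type67.D23 (gen 1)) ∧
    ∀ P : Cfsg.Spor.Fi23 → Prop, P (gen 1) →
      (∀ x, 1 ≤ x → x < 10 → ∀ y, P y → P (gen x * y * gen x)) → ∀ y ∈ S, P y := by
  classical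
  obtain ⟨hp, hlen⟩ := pts_nodup
  let f : ℕ × ℕ → Cfsg.Spor.Fi23 := fun q =>
    (gword g10 (dig 30 q.2))⁻¹ * gen 1 * gword g10 (dig 30 q.2)
  have hc : ∀ q ∈ UniqueData.pts, (∀ x ∈ dig 30 q.2, 1 ≤ x ∧ x < 10) ∧
      ∃ p : Pt, (p : ℕ) = q.1 ∧ f q = tran p ∧ pi (gen 1) p = p ∧ p ≠ pt1 := by
    intro q hq
    have h := List.all_eq_true.1 pts_check q hq
    simp only [Bool.and_eq_true, Bool.not_eq_true', List.all_eq_true, Nat.blt, Nat.ble_eq] at h
    obtain ⟨⟨⟨hd, ha⟩, hb⟩, hne⟩ := h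
    have hw : ∀ x ∈ dig 30 q.2, 1 ≤ x ∧ x < 10 := fun x hx => ⟨(hd x hx).1, (hd x hx).2⟩
    have h1 : ((pt1 : Pt) : ℕ) = gP 1 := pt1_val
    refine ⟨hw, pi (gword g10 (dig 30 q.2))⁻¹ (pt1), ?_, ?_, ?_, ?_⟩
    · rw [act_eq _ (fun x hx => (hw x hx).2), h1]
      exact Nat.eq_of_beq_eq_true ha
    · show (gword g10 (dig 30 q.2))⁻¹ * gen 1 * gword g10 (dig 30 q.2) = _
      rw [← tran_conj, inv_inv, gen1_tran]
    · apply Fin.ext
      have e : gen 1 = (gword g10 [1])⁻¹ := by
        rw [CfsgLib.CosetEnum.Fi23.gword_one, show g10 1 = gen 1 from letterVal_lt gen (by norm_num),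
          Fi23.gen_inv]
      conv_lhs => rw [e]
      rw [act_eq [1] (by simp), act_eq _ (fun x hx => (hw x hx).2), h1, Nat.eq_of_beq_eq_true ha]
      exact Nat.eq_of_beq_eq_true hb
    · intro e
      have := congrArg Fin.val e
      rw [act_eq _ (fun x hx => (hw x hx).2), h1, Nat.eq_of_beq_eq_true ha] at this
      rw [this] at hne
      simp at hne
  refine ⟨(UniqueData.pts.map f).toFinset, ?_, ?_, ?_⟩
  · rw [List.toFinset_card_of_nodup, List.length_map, hlen]
    refine List.Nodup.map_on ?_ ?_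
    · intro q hq r hr e
      obtain ⟨-, p, hp1, hp2, -⟩ := hc q hq
      obtain ⟨-, p', hp1', hp2', -⟩ := hc r hr
      have hpp : p = p' := tran_injective (hp2.symm.trans (e.trans hp2'))
      have hqr : q.1 = r.1 := by rw [← hp1, ← hp1', hpp]
      exact List.inj_on_of_nodup_map (hp.imp fun h => ne_of_lt h) hq hr hqr
    · exact List.Nodup.of_map Prod.fst (hp.imp fun h => ne_of_lt h)
  · intro y hy
    obtain ⟨q, hq, rfl⟩ := List.mem_map.1 (List.mem_toFinset.1 hy)
    obtain ⟨-, p, -, hp2, hfix, hne⟩ := hc q hq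
    rw [hp2]
    have h1 : gen 1 = tran (pt1) := gen1_tran
    refine ⟨Fi23Type67.mem_D23.2 ⟨_, rfl⟩, fun e => hne (tran_injective (e.trans h1)), ?_⟩
    have e := tran_conj (gen 1) p
    rw [hfix] at e
    exact mul_inv_eq_iff_eq_mul.1 e
  · intro P h1 hs y hy
    obtain ⟨q, hq, rfl⟩ := List.mem_map.1 (List.mem_toFinset.1 hy)
    exact closed_conj h1 hs _ (hc q hq).1

end CfsgLib.AutLf48.UniqueCert
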